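import Cfsg.Prelude
import Cfsg.Agent.Lib.Helper30.Coprime

set_option autoImplicit false

/-! Generic lemmas for rung C of the ladder "B-G 3.6". -/

namespace Cfsg.Agent.Lib.Helper69

open Subgroup Cfsg
open Cfsg.Agent.Lib.Helper30
open scoped commutatorElement IsMulCommutative

variable {G : Type*} [Group G]

theorem comm_of_mem {X : Subgroup G} (hX : IsMulCommutative X) {a b : G} (ha : a ∈ X) (hb : b ∈ X) :
    a * b = b * a :=
  congrArg Subtype.val (hX.is_comm.comm ⟨a, ha⟩ ⟨b, hb⟩)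

theorem isMulCommutative_le {X Y : Subgroup G} (hX : IsMulCommutative X) (h : Y ≤ X) :
    IsMulCommutative Y := by
  constructor; constructor
  intro a b
  exact Subtype.ext (comm_of_mem hX (h a.2) (h b.2))

theorem coe_normalizer_smul (V : Subgroup G) (n : ↥(normalizer (V : Set G))) (v : V) :
    ((n • v : V) : G) = n * v * (n : G)⁻¹ := rfl

/-- Coprime action on an abelian group: `[V, A] ∩ C(A) = 1`. -/
theorem commutator_inf_centralizer_eq_bot [Finite G] (V A : Subgroup G) (hVc : IsMulCommutative V)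
    (hAV : A ≤ normalizer (V : Set G)) (hcop : (Nat.card V).Coprime (Nat.card A)) :
    ⁅V, A⁆ ⊓ centralizer (A : Set G) = ⊥ := by
  classical
  let _ : Fintype A := Fintype.ofFinite A
  let nn : A → ↥(normalizer (V : Set G)) := fun g => ⟨g, hAV g.2⟩
  let θ : V →* V :=
    { toFun := fun v => ∏ g : A, nn g • v
      map_one' := by simp
      map_mul' := by
        intro x y
        simp only [smul_mul', Finset.prod_mul_distrib] }
  have h1 : ∀ (x : A) (v : V), θ (nn x • v) = θ v := by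
    intro x v
    refine Fintype.prod_equiv (Equiv.mulRight x) _ _ ?_
    intro g
    rw [smul_smul]
    rfl
  have h2 : ⁅V, A⁆ ≤ (θ.ker).map V.subtype := by
    rw [commutator_le]
    intro v hv x hx
    refine ⟨⟨v, hv⟩ * (nn ⟨x, hx⟩ • (⟨v, hv⟩ : V))⁻¹, ?_, ?_⟩
    · rw [SetLike.mem_coe, MonoidHom.mem_ker, map_mul, map_inv, h1, mul_inv_cancel]
    · simp only [Subgroup.coe_subtype, Subgroup.coe_mul, Subgroup.coe_inv, coe_normalizer_smul,
        commutatorElement_def, nn]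
      group
  rw [eq_bot_iff]
  rintro z ⟨hz1, hz2⟩
  obtain ⟨w, hw, rfl⟩ := h2 hz1
  have h3 : θ w = w ^ Nat.card A := by
    have h4 : ∀ g : A, nn g • w = w := by
      intro g
      apply Subtype.ext
      rw [coe_normalizer_smul]
      have := mem_centralizer_iff.mp hz2 g g.2
      simp only [Subgroup.coe_subtype] at this
      change (g : G) * w * (g : G)⁻¹ = w
      rw [this, mul_inv_cancel_right]
    change ∏ g : A, nn g • w = _
    simp only [h4, Finset.prod_const, Finset.card_univ, Nat.card_eq_fintype_card]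
  rw [SetLike.mem_coe, MonoidHom.mem_ker, h3] at hw
  have h5 : w ^ Nat.card V = 1 := pow_card_eq_one'
  have h6 : w = 1 := by
    have h7 : orderOf w ∣ Nat.card A := orderOf_dvd_of_pow_eq_one hw
    have h8 : orderOf w ∣ Nat.card V := orderOf_dvd_of_pow_eq_one h5
    exact orderOf_eq_one_iff.mp (Nat.eq_one_of_dvd_coprimes hcop h8 h7)
  rw [h6]
  simp

/-- A maximal subgroup `Y` of the abelian group `X` and an element outside it generate `X`. -/
theorem exists_zpow_mul_of_max {X Y : Subgroup G} (hXc : IsMulCommutative X) (hlt : Y < X)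
    (hmax : ∀ Z : Subgroup G, Y < Z → Z ≤ X → Z = X) {x : G} (hx : x ∈ X) (hxY : x ∉ Y) :
    ∀ y ∈ X, ∃ k : ℤ, ∃ u ∈ Y, y = x ^ k * u := by
  let M : Subgroup G :=
    { carrier := {y | ∃ k : ℤ, ∃ u ∈ Y, y = x ^ k * u}
      mul_mem' := by
        rintro _ _ ⟨k, u, hu, rfl⟩ ⟨l, w, hw, rfl⟩
        refine ⟨k + l, u * w, Y.mul_mem hu hw, ?_⟩
        have := comm_of_mem hXc (hlt.le hu) (X.zpow_mem hx l)
        calc x ^ k * u * (x ^ l * w) = x ^ k * (u * x ^ l) * w := by simp only [mul_assoc]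
          _ = x ^ (k + l) * (u * w) := by rw [this, zpow_add]; simp only [mul_assoc]
      one_mem' := ⟨0, 1, Y.one_mem, by simp⟩
      inv_mem' := by
        rintro _ ⟨k, u, hu, rfl⟩
        refine ⟨-k, u⁻¹, Y.inv_mem hu, ?_⟩
        rw [mul_inv_rev, zpow_neg]
        exact comm_of_mem hXc (hlt.le (Y.inv_mem hu)) (X.inv_mem (X.zpow_mem hx k)) }
  have h1 : Y < M := by
    refine lt_of_le_of_ne (fun u hu => ⟨0, u, hu, by simp⟩) ?_
    intro h
    apply hxY
    rw [h]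
    exact ⟨1, 1, Y.one_mem, by simp⟩
  have h2 : M ≤ X := by
    rintro _ ⟨k, u, hu, rfl⟩
    exact X.mul_mem (X.zpow_mem hx k) (hlt.le hu)
  have h3 := hmax M h1 h2
  intro y hy
  rw [← h3] at hy
  exact hy

/-- Commutators of elements normalizing `Y ≤ X` act trivially on `X / Y` if it is cyclic. -/
theorem commutator_commutator_mem {X Y : Subgroup G} (hXc : IsMulCommutative X) {x : G}
    (hx : x ∈ X) (hgen : ∀ y ∈ X, ∃ k : ℤ, ∃ u ∈ Y, y = x ^ k * u) {g h : G}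
    (hgX : g ∈ normalizer (X : Set G)) (hgY : g ∈ normalizer (Y : Set G))
    (hhX : h ∈ normalizer (X : Set G)) (hhY : h ∈ normalizer (Y : Set G)) {y : G} (hy : y ∈ X) :
    ⁅y, ⁅g, h⁆⁆ ∈ Y := by
  let Y' := Y.subgroupOf X
  have hcyc : IsCyclic (↥X ⧸ Y') := by
    refine ⟨QuotientGroup.mk' Y' ⟨x, hx⟩, fun c => ?_⟩
    obtain ⟨y, rfl⟩ := QuotientGroup.mk'_surjective Y' c
    obtain ⟨k, u, hu, hy⟩ := hgen y y.2
    refine ⟨k, ?_⟩
    change (QuotientGroup.mk' Y' ⟨x, hx⟩) ^ k = QuotientGroup.mk' Y' y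
    rw [← map_zpow]
    apply QuotientGroup.eq.mpr
    rw [mem_subgroupOf]
    simp only [Subgroup.coe_mul, Subgroup.coe_inv, Subgroup.coe_zpow]
    rw [hy, inv_mul_cancel_left]
    exact hu
  have key : ∀ n : G, n ∈ normalizer (X : Set G) → n ∈ normalizer (Y : Set G) →
      ∃ m : ℤ, ∀ (y : X) (hy' : n * y * n⁻¹ ∈ X),
        QuotientGroup.mk' Y' ⟨n * y * n⁻¹, hy'⟩ = (QuotientGroup.mk' Y' y) ^ m := by
    intro n hnX hnY
    let σ : X →* X := MulDistribMulAction.toMonoidHom X (⟨n, hnX⟩ : ↥(normalizer (X : Set G)))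
    have hσ : Y' ≤ Y'.comap σ := by
      intro u hu
      rw [mem_comap, mem_subgroupOf]
      exact (mem_normalizer_iff.mp hnY _).mp hu
    obtain ⟨m, hm⟩ := (QuotientGroup.map Y' Y' σ hσ).map_cyclic
    exact ⟨m, fun y hy' => hm (QuotientGroup.mk' Y' y)⟩
  obtain ⟨mg, hmg⟩ := key g hgX hgY
  obtain ⟨mh, hmh⟩ := key h hhX hhY
  have hconj : ∀ {n : G}, n ∈ normalizer (X : Set G) → ∀ {z : G}, z ∈ X → n * z * n⁻¹ ∈ X :=
    fun hn z hz => (mem_normalizer_iff.mp hn _).mp hz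
  -- the element `y' = (h g)⁻¹ y⁻¹ (h g)`
  have hy' : (h * g)⁻¹ * y⁻¹ * (h * g)⁻¹⁻¹ ∈ X :=
    hconj ((normalizer (X : Set G)).inv_mem ((normalizer (X : Set G)).mul_mem hhX hgX))
      (X.inv_mem hy)
  set y' := (h * g)⁻¹ * y⁻¹ * (h * g)⁻¹⁻¹ with hy'def
  have e1 := hmh ⟨y', hy'⟩ (hconj hhX hy')
  have e2 := hmg ⟨h * y' * h⁻¹, hconj hhX hy'⟩ (hconj hgX (hconj hhX hy'))
  have e3 := hmg ⟨y', hy'⟩ (hconj hgX hy')
  have e4 := hmh ⟨g * y' * g⁻¹, hconj hgX hy'⟩ (hconj hhX (hconj hgX hy'))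
  rw [e1] at e2
  rw [e3, zpow_comm, ← e2] at e4
  have e5 := QuotientGroup.eq.mp e4
  rw [mem_subgroupOf] at e5
  simp only [Subgroup.coe_mul, Subgroup.coe_inv] at e5
  have e6 : ⁅y, ⁅g, h⁆⁆ = (h * (g * y' * g⁻¹) * h⁻¹)⁻¹ * (g * (h * y' * h⁻¹) * g⁻¹) := by
    rw [hy'def, commutatorElement_def, commutatorElement_def]
    group
  rw [e6]
  exact e5

/-- If `b` normalizes the finite group `T` and `C_T(b) = 1` then every element of `T` is a
commutator `u b u⁻¹ b⁻¹`. -/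
theorem exists_eq_commutator_of_fpf [Finite G] {T : Subgroup G} {b : G}
    (hbT : b ∈ normalizer (T : Set G)) (hfpf : T ⊓ centralizer ({b} : Set G) = ⊥) {s : G}
    (hs : s ∈ T) : ∃ u ∈ T, s = u * b * u⁻¹ * b⁻¹ := by
  let f : T → T := fun u => ⟨u * b * (u : G)⁻¹ * b⁻¹, by
    have h1 : b * (u : G)⁻¹ * b⁻¹ ∈ T := (mem_normalizer_iff.mp hbT _).mp (T.inv_mem u.2)
    have : (u : G) * b * (u : G)⁻¹ * b⁻¹ = u * (b * (u : G)⁻¹ * b⁻¹) := by group
    rw [this]
    exact T.mul_mem u.2 h1⟩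
  have hinj : Function.Injective f := by
    intro u w huw
    have h1 : (u : G) * b * (u : G)⁻¹ * b⁻¹ = w * b * (w : G)⁻¹ * b⁻¹ := congrArg Subtype.val huw
    have h2 : (w : G)⁻¹ * u ∈ T ⊓ centralizer ({b} : Set G) := by
      refine mem_inf.mpr ⟨T.mul_mem (T.inv_mem w.2) u.2, ?_⟩
      rw [mem_centralizer_singleton_iff]
      have h3 : (u : G) * b * (u : G)⁻¹ = w * b * (w : G)⁻¹ := mul_right_cancel h1
      calc (w : G)⁻¹ * u * b = (w : G)⁻¹ * (u * b * (u : G)⁻¹) * u := by group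
        _ = b * ((w : G)⁻¹ * u) := by rw [h3]; group
    rw [hfpf, mem_bot] at h2
    apply Subtype.ext
    exact (inv_mul_eq_one.mp h2).symm
  obtain ⟨u, hu⟩ := (Finite.injective_iff_surjective.mp hinj) ⟨s, hs⟩
  exact ⟨u, u.2, (congrArg Subtype.val hu).symm⟩

/-- If `b` normalizes `S ≤ T` and `C_T(b) = 1`, then `t⁻¹ b t b⁻¹ ∈ S` forces `t ∈ S`. -/
theorem mem_of_commutator_mem_of_fpf [Finite G] {T S : Subgroup G} {b : G} (hST : S ≤ T)
    (hbS : b ∈ normalizer (S : Set G)) (hfpf : T ⊓ centralizer ({b} : Set G) = ⊥) {t : G}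
    (ht : t ∈ T) (h : t⁻¹ * b * t * b⁻¹ ∈ S) : t ∈ S := by
  have hfpf' : S ⊓ centralizer ({b} : Set G) = ⊥ :=
    le_bot_iff.mp ((inf_le_inf_right _ hST).trans hfpf.le)
  obtain ⟨u, hu, heq⟩ := exists_eq_commutator_of_fpf hbS hfpf' h
  have h2 : t * u ∈ T ⊓ centralizer ({b} : Set G) := by
    refine mem_inf.mpr ⟨T.mul_mem ht (hST hu), ?_⟩
    rw [mem_centralizer_singleton_iff]
    have h3 : t⁻¹ * b * t = u * b * u⁻¹ := mul_right_cancel heq
    calc t * u * b = t * (u * b * u⁻¹) * u := by group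
      _ = b * (t * u) := by rw [← h3]; group
  rw [hfpf, mem_bot] at h2
  have : t = u⁻¹ := eq_inv_of_mul_eq_one_left h2
  rw [this]
  exact S.inv_mem hu

end Cfsg.Agent.Lib.Helper69
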