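import Cfsg.Prelude
import Cfsg.Agent.Lib.Helper30.Coprime

set_option autoImplicit false

/-! Rung E of the ladder "B-G 3.6": existence of a Hall--Higman type section. -/

namespace Cfsg.Agent.Lib.Helper69

open Subgroup Cfsg
open Cfsg.Agent.Lib.Helper30
open scoped commutatorElement

variable {G : Type*} [Group G]

theorem pow_mul_of_class_two {x y z : G} (hyx : y * x = z * x * y) (hzy : Commute z y) (k : ℕ) :
    y ^ k * x = z ^ k * x * y ^ k := by
  induction k with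
  | zero => simp
  | succ k ih =>
    have h1 : Commute (y ^ k) z := (hzy.pow_right k).symm
    calc y ^ (k + 1) * x = y ^ k * (y * x) := by rw [pow_succ, mul_assoc]
      _ = (y ^ k * z) * x * y := by rw [hyx]; simp only [mul_assoc]
      _ = z * (y ^ k * x) * y := by rw [h1.eq]; simp only [mul_assoc]
      _ = z * (z ^ k * x * y ^ k) * y := by rw [ih]
      _ = z ^ (k + 1) * x * y ^ (k + 1) := by rw [pow_succ' z, pow_succ y]; simp only [mul_assoc]

theorem mul_pow_of_class_two {x y z : G} (hyx : y * x = z * x * y) (hzx : Commute z x)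
    (hzy : Commute z y) (k : ℕ) : (x * y) ^ k = x ^ k * y ^ k * z ^ (k.choose 2) := by
  induction k with
  | zero => simp
  | succ k ih =>
    have hc : (k + 1).choose 2 = k + k.choose 2 := by
      rw [Nat.choose_succ_succ' k 1, Nat.choose_one_right]
    have h1 : Commute (z ^ k.choose 2) x := hzx.pow_left _
    have h2 : Commute (z ^ k.choose 2) y := hzy.pow_left _
    have h3 : Commute (z ^ k) x := hzx.pow_left _
    have h4 : Commute (z ^ k) (y ^ (k + 1)) := hzy.pow_pow _ _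
    calc (x * y) ^ (k + 1) = x ^ k * y ^ k * z ^ (k.choose 2) * (x * y) := by rw [pow_succ, ih]
      _ = x ^ k * y ^ k * (z ^ (k.choose 2) * x) * y := by simp only [mul_assoc]
      _ = x ^ k * (y ^ k * x) * (z ^ (k.choose 2) * y) := by rw [h1.eq]; simp only [mul_assoc]
      _ = x ^ k * (z ^ k * x * y ^ k) * (y * z ^ (k.choose 2)) := by
          rw [pow_mul_of_class_two hyx hzy k, h2.eq]
      _ = x ^ k * (z ^ k * x) * y ^ (k + 1) * z ^ (k.choose 2) := by
          rw [pow_succ y]; simp only [mul_assoc]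
      _ = x ^ (k + 1) * (z ^ k * y ^ (k + 1)) * z ^ (k.choose 2) := by
          rw [h3.eq, pow_succ x]; simp only [mul_assoc]
      _ = x ^ (k + 1) * y ^ (k + 1) * z ^ ((k + 1).choose 2) := by
          rw [h4.eq, hc, pow_add z]; simp only [mul_assoc]

theorem dvd_choose_two_of_odd {n : ℕ} (hn : Odd n) : n ∣ n.choose 2 := by
  obtain ⟨m, rfl⟩ := hn
  rw [Nat.choose_two_right]
  refine ⟨m, ?_⟩
  have : (2 * m + 1) * (2 * m + 1 - 1) = 2 * ((2 * m + 1) * m) := by
    rw [Nat.add_sub_cancel]; ring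
  rw [this, Nat.mul_div_cancel_left _ (by norm_num)]

/-- In a group of class at most two, `(x y)^n = x^n y^n` for odd `n` if `y^n` commutes with `x`. -/
theorem mul_pow_of_odd {Q : Subgroup G} (hQ : ⁅Q, Q⁆ ≤ centralizer (Q : Set G)) {n : ℕ}
    (hn : Odd n) {x y : G} (hx : x ∈ Q) (hy : y ∈ Q) (hc : Commute (y ^ n) x) :
    (x * y) ^ n = x ^ n * y ^ n := by
  have hz : ⁅y, x⁆ ∈ centralizer (Q : Set G) := hQ (commutator_mem_commutator hy hx)
  have hzx : Commute ⁅y, x⁆ x := (mem_centralizer_iff.mp hz x hx).symm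
  have hzy : Commute ⁅y, x⁆ y := (mem_centralizer_iff.mp hz y hy).symm
  have hyx : y * x = ⁅y, x⁆ * x * y := by rw [commutatorElement_def]; group
  have h1 := pow_mul_of_class_two hyx hzy n
  have h2 : ⁅y, x⁆ ^ n = 1 := by
    rw [hc.eq, mul_assoc] at h1
    exact (mul_eq_right.mp h1.symm)
  obtain ⟨m, hm⟩ := dvd_choose_two_of_odd hn
  rw [mul_pow_of_class_two hyx hzx hzy n, hm, pow_mul, h2, one_pow, mul_one]

/-- The subgroup of the elements of `Q` killed by the odd number `n`, `Q` of class at most two. -/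
def omegaSub (Q : Subgroup G) (hQ : ⁅Q, Q⁆ ≤ centralizer (Q : Set G)) (n : ℕ) (hn : Odd n) :
    Subgroup G where
  carrier := {x | x ∈ Q ∧ x ^ n = 1}
  mul_mem' := by
    rintro x y ⟨hx, hx1⟩ ⟨hy, hy1⟩
    refine ⟨Q.mul_mem hx hy, ?_⟩
    rw [mul_pow_of_odd hQ hn hx hy (by rw [hy1]; exact Commute.one_left x), hx1, hy1, one_mul]
  one_mem' := ⟨Q.one_mem, one_pow n⟩
  inv_mem' := by
    rintro x ⟨hx, hx1⟩
    exact ⟨Q.inv_mem hx, by rw [inv_pow, hx1, inv_one]⟩

theorem mem_omegaSub {Q : Subgroup G} {hQ : ⁅Q, Q⁆ ≤ centralizer (Q : Set G)} {n : ℕ}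
    {hn : Odd n} {x : G} : x ∈ omegaSub Q hQ n hn ↔ x ∈ Q ∧ x ^ n = 1 := Iff.rfl

theorem omegaSub_le {Q : Subgroup G} {hQ : ⁅Q, Q⁆ ≤ centralizer (Q : Set G)} {n : ℕ}
    {hn : Odd n} : omegaSub Q hQ n hn ≤ Q := fun _ h => h.1

theorem mem_normalizer_omegaSub {Q : Subgroup G} {hQ : ⁅Q, Q⁆ ≤ centralizer (Q : Set G)} {n : ℕ}
    {hn : Odd n} {g : G} (hg : g ∈ normalizer (Q : Set G)) :
    g ∈ normalizer ((omegaSub Q hQ n hn : Subgroup G) : Set G) := by
  rw [mem_normalizer_iff]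
  intro x
  rw [mem_omegaSub, mem_omegaSub, conj_pow, conj_eq_one_iff, ← mem_normalizer_iff.mp hg x]

theorem mem_normalizer_commutator {g : G} {X Y : Subgroup G} (hX : g ∈ normalizer (X : Set G))
    (hY : g ∈ normalizer (Y : Set G)) : g ∈ normalizer ((⁅X, Y⁆ : Subgroup G) : Set G) := by
  apply mem_normalizer_of_cj_eq
  rw [cj_commutator, cj_eq_of_mem_normalizer hX, cj_eq_of_mem_normalizer hY]

variable [Finite G]

theorem exists_HH_section {p : ℕ} (hp : p.Prime) (K T : Subgroup G) (a : G)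
    (hK : Group.IsSolvable K) (hKodd : Odd (Nat.card K)) (hKp : (Nat.card K).Coprime p)
    (hT : IsPGroup p T) (hTK : T ≤ normalizer (K : Set G)) (haK : a ∈ normalizer (K : Set G))
    (haT : a ∈ normalizer (T : Set G)) (hnc : ¬ T ≤ centralizer (K : Set G)) :
    ∃ (T₁ Q : Subgroup G) (q : ℕ), q.Prime ∧ q ≠ 2 ∧ q ≠ p ∧ T₁ ≤ T ∧
      a ∈ normalizer (T₁ : Set G) ∧ Q ≤ K ∧ T₁ ≤ normalizer (Q : Set G) ∧
      a ∈ normalizer (Q : Set G) ∧ (∀ x ∈ Q, x ^ q = 1) ∧ ⁅Q, Q⁆ ≤ centralizer (Q : Set G) ∧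
      ⁅Q, T₁⁆ = Q ∧ Q ≠ ⊥ ∧ ⁅T₁, T₁⁆ ≤ centralizer (Q : Set G) ∧
      ∀ X : Subgroup G, X < Q → T₁ ≤ normalizer (X : Set G) → a ∈ normalizer (X : Set G) →
        T₁ ≤ centralizer (X : Set G) := by
  have : Fact p.Prime := ⟨hp⟩
  -- the subgroup `T₁`
  obtain ⟨T₁, ⟨hT₁T, haT₁, hT₁nc⟩, hT₁min⟩ :=
    (wellFounded_lt : WellFounded ((· < ·) : Subgroup G → Subgroup G → Prop)).has_min
      {X | X ≤ T ∧ a ∈ normalizer (X : Set G) ∧ ¬ X ≤ centralizer (K : Set G)}
      ⟨T, le_rfl, haT, hnc⟩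
  have hT₁p : IsPGroup p T₁ := hT.to_le hT₁T
  have hT₁K : T₁ ≤ normalizer (K : Set G) := hT₁T.trans hTK
  have hT₁sol : Group.IsSolvable T₁ := by
    have := hT₁p.isNilpotent
    infer_instance
  have hT₁ne : T₁ ≠ ⊥ := by
    rintro rfl
    exact hT₁nc bot_le
  have hT₁' : ⁅T₁, T₁⁆ ≤ centralizer (K : Set G) := by
    by_contra hcon
    exact hT₁min ⁅T₁, T₁⁆ ⟨(commutator_lt_of_solvable hT₁sol hT₁ne).le.trans hT₁T,
      mem_normalizer_commutator haT₁ haT₁, hcon⟩ (commutator_lt_of_solvable hT₁sol hT₁ne)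
  -- the subgroup `Q`
  obtain ⟨Q, ⟨hQK, hT₁Q, haQ, hQnc⟩, hQmin⟩ :=
    (wellFounded_lt : WellFounded ((· < ·) : Subgroup G → Subgroup G → Prop)).has_min
      {X | X ≤ K ∧ T₁ ≤ normalizer (X : Set G) ∧ a ∈ normalizer (X : Set G) ∧
        ¬ T₁ ≤ centralizer (X : Set G)}
      ⟨K, le_rfl, hT₁K, haK, hT₁nc⟩
  have hmin : ∀ X : Subgroup G, X < Q → T₁ ≤ normalizer (X : Set G) →
      a ∈ normalizer (X : Set G) → T₁ ≤ centralizer (X : Set G) := by
    intro X hX h1 h2
    by_contra hcon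
    exact hQmin X ⟨hX.le.trans hQK, h1, h2, hcon⟩ hX
  have hmin' : ∀ X : Subgroup G, X ≤ Q → T₁ ≤ normalizer (X : Set G) →
      a ∈ normalizer (X : Set G) → ¬ T₁ ≤ centralizer (X : Set G) → X = Q := by
    intro X hX h1 h2 h3
    by_contra hne
    exact h3 (hmin X (lt_of_le_of_ne hX hne) h1 h2)
  have hQne : Q ≠ ⊥ := by
    rintro rfl
    apply hQnc
    intro t _
    rw [mem_centralizer_iff]
    intro h hh
    rw [SetLike.mem_coe, mem_bot] at hh
    rw [hh, one_mul, mul_one]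
  have hQsol : Group.IsSolvable Q := isSolvable_of_le hQK hK
  have hcardQ : Nat.card Q ∣ Nat.card K := card_dvd_of_le hQK
  have hcop : (Nat.card T₁).Coprime (Nat.card Q) := by
    obtain ⟨k, hk⟩ := IsPGroup.iff_card.mp hT₁p
    rw [hk]
    exact Nat.Coprime.pow_left k (Nat.Coprime.coprime_dvd_right hcardQ hKp.symm)
  -- `[Q, T₁] = Q`
  have hQT : ⁅Q, T₁⁆ = Q := by
    apply hmin' _ (commutator_le_of_le_normalizer hT₁Q)
      (le_normalizer_commutator hT₁Q le_normalizer) (mem_normalizer_commutator haQ haT₁)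
    intro hcon
    have h1 : ⁅⁅Q, T₁⁆, T₁⁆ = ⊥ :=
      commutator_eq_bot_iff_le_centralizer.mpr (le_centralizer_iff.mp hcon)
    rw [commutator_commutator_eq hT₁Q hcop (Or.inl hT₁sol)] at h1
    exact hQnc (le_centralizer_iff.mp (commutator_eq_bot_iff_le_centralizer.mp h1))
  -- class at most two
  have hQ'lt : ⁅Q, Q⁆ < Q := commutator_lt_of_solvable hQsol hQne
  have hQ'c : T₁ ≤ centralizer ((⁅Q, Q⁆ : Subgroup G) : Set G) :=
    hmin _ hQ'lt (le_normalizer_commutator hT₁Q hT₁Q) (mem_normalizer_commutator haQ haQ)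
  have hcl : ⁅Q, Q⁆ ≤ centralizer (Q : Set G) := by
    have h1 : ⁅⁅T₁, ⁅Q, Q⁆⁆, Q⁆ = ⊥ := by
      rw [commutator_eq_bot_iff_le_centralizer.mpr hQ'c, commutator_bot_left]
    have h2 : ⁅⁅⁅Q, Q⁆, Q⁆, T₁⁆ = ⊥ := by
      rw [commutator_eq_bot_iff_le_centralizer]
      exact (commutator_mono hQ'lt.le le_rfl).trans (le_centralizer_iff.mp hQ'c)
    have h3 := commutator_commutator_eq_bot_of_rotate h1 h2
    rw [hQT] at h3
    exact le_centralizer_iff.mp (commutator_eq_bot_iff_le_centralizer.mp h3)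
  have hQodd : Odd (Nat.card Q) := hKodd.of_dvd_nat hcardQ
  -- the prime `q`
  have hcard1 : Nat.card Q ≠ 1 := by
    intro h
    exact hQne ((card_eq_one).mp h)
  obtain ⟨q, hq, hqd⟩ := Nat.exists_prime_and_dvd hcard1
  have : Fact q.Prime := ⟨hq⟩
  obtain ⟨e, m, hm, hem⟩ := Nat.exists_eq_pow_mul_and_not_dvd (Nat.card_pos (α := Q)).ne' q
    hq.ne_one
  have hqe_odd : Odd (q ^ e) := hQodd.of_dvd_nat ⟨m, hem⟩
  have hm_odd : Odd m := hQodd.of_dvd_nat ⟨q ^ e, by rw [hem, mul_comm]⟩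
  have hpowcard : ∀ x ∈ Q, x ^ Nat.card Q = 1 := by
    intro x hx
    have := pow_card_eq_one' (G := Q) (x := ⟨x, hx⟩)
    exact congrArg Subtype.val this
  have hinv : ∀ (n : ℕ) (hn : Odd n), T₁ ≤ normalizer ((omegaSub Q hcl n hn : Subgroup G) : Set G) :=
    fun n hn t ht => mem_normalizer_omegaSub (hT₁Q ht)
  have hqgroup : ∀ x ∈ Q, x ^ (q ^ e) = 1 := by
    by_cases h1 : T₁ ≤ centralizer ((omegaSub Q hcl (q ^ e) hqe_odd : Subgroup G) : Set G)
    · by_cases h2 : T₁ ≤ centralizer ((omegaSub Q hcl m hm_odd : Subgroup G) : Set G)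
      · exfalso
        apply hQnc
        intro t ht
        rw [mem_centralizer_iff]
        intro x hx
        have h3 : Commute (x ^ m) t := mem_centralizer_iff.mp (h1 ht) _
          ⟨Q.pow_mem hx m, by rw [← pow_mul, mul_comm, ← hem, hpowcard x hx]⟩
        have h4 : Commute (x ^ (q ^ e)) t := mem_centralizer_iff.mp (h2 ht) _
          ⟨Q.pow_mem hx _, by rw [← pow_mul, ← hem, hpowcard x hx]⟩
        have hco : Nat.Coprime (q ^ e) m :=
          Nat.Coprime.pow_left e ((Nat.Prime.coprime_iff_not_dvd hq).mpr hm)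
        have h5 : x = (x ^ (q ^ e)) ^ (Nat.gcdA (q ^ e) m) * (x ^ m) ^ (Nat.gcdB (q ^ e) m) := by
          have h6 := Nat.gcd_eq_gcd_ab (q ^ e) m
          rw [hco.gcd_eq_one] at h6
          rw [← zpow_natCast x (q ^ e), ← zpow_natCast x m, ← zpow_mul, ← zpow_mul, ← zpow_add,
            ← h6]
          simp
        have h7 : Commute x t := by
          rw [h5]
          exact (h4.zpow_left _).mul_left (h3.zpow_left _)
        exact h7.eq
      · exfalso
        have h3 := hmin' _ omegaSub_le (hinv m hm_odd) (mem_normalizer_omegaSub haQ) h2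
        obtain ⟨x, hx⟩ := exists_prime_orderOf_dvd_card' (G := Q) q hqd
        have h4 : (x : G) ∈ omegaSub Q hcl m hm_odd := by rw [h3]; exact x.2
        apply hm
        rw [← hx, ← Subgroup.orderOf_coe]
        exact orderOf_dvd_of_pow_eq_one h4.2
    · have h3 := hmin' _ omegaSub_le (hinv _ hqe_odd) (mem_normalizer_omegaSub haQ) h1
      intro x hx
      have h4 : x ∈ omegaSub Q hcl (q ^ e) hqe_odd := by rw [h3]; exact hx
      exact h4.2
  have hq_odd : Odd q := hQodd.of_dvd_nat hqd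
  have hq2 : q ≠ 2 := by
    rintro rfl
    exact absurd hq_odd (by decide)
  have hqp : q ≠ p := by
    rintro rfl
    have h1 : q ∣ Nat.card K := hqd.trans hcardQ
    have := Nat.Coprime.eq_one_of_dvd hKp.symm h1
    exact hq.ne_one this
  -- exponent `q`
  have hex : ∃ f : ℕ, ∀ x ∈ Q, x ^ (q ^ f) = 1 := ⟨e, hqgroup⟩
  classical
  have hfind := Nat.find_spec hex
  have hfmin := fun k (hk : k < Nat.find hex) => Nat.find_min hex hk
  obtain ⟨f, hf⟩ : ∃ f, Nat.find hex = f + 1 := by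
    rcases hfe : Nat.find hex with _ | f
    · exfalso
      apply hQne
      rw [eq_bot_iff_forall]
      intro x hx
      have := hfind x hx
      rwa [hfe, pow_zero, pow_one] at this
    · exact ⟨f, rfl⟩
  rw [hf] at hfind
  have hqf_odd : Odd (q ^ f) := hq_odd.pow
  have hlt : omegaSub Q hcl (q ^ f) hqf_odd < Q := by
    apply lt_of_le_of_ne omegaSub_le
    intro heq
    apply hfmin f (by omega)
    intro x hx
    have h4 : x ∈ omegaSub Q hcl (q ^ f) hqf_odd := by rw [heq]; exact hx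
    exact h4.2
  have hcent := hmin _ hlt (hinv _ hqf_odd) (mem_normalizer_omegaSub haQ)
  have hexp : ∀ x ∈ Q, x ^ q = 1 := by
    have hle : ⁅Q, T₁⁆ ≤ omegaSub Q hcl q hq_odd := by
      rw [commutator_le]
      intro x hx t ht
      have hy : t * x⁻¹ * t⁻¹ ∈ Q := (mem_normalizer_iff.mp (hT₁Q ht) _).mp (Q.inv_mem hx)
      have hxq : Commute (x ^ q) t := mem_centralizer_iff.mp (hcent ht) _
        ⟨Q.pow_mem hx q, by rw [← pow_mul, ← pow_succ', hfind x hx]⟩
      have hyq : (t * x⁻¹ * t⁻¹) ^ q = (x ^ q)⁻¹ := by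
        rw [conj_pow, inv_pow]
        have := hxq.inv_left
        rw [← this.eq, mul_inv_cancel_right]
      have heq : ⁅x, t⁆ = x * (t * x⁻¹ * t⁻¹) := by rw [commutatorElement_def]; group
      rw [heq]
      refine ⟨Q.mul_mem hx hy, ?_⟩
      rw [mul_pow_of_odd hcl hq_odd hx hy, hyq, mul_inv_cancel]
      rw [hyq]
      exact ((Commute.refl x).pow_left q).inv_left
    intro x hx
    have : x ∈ omegaSub Q hcl q hq_odd := hle (by rw [hQT]; exact hx)
    exact this.2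
  exact ⟨T₁, Q, q, hq, hq2, hqp, hT₁T, haT₁, hQK, hT₁Q, haQ, hexp, hcl, hQT, hQne,
    hT₁'.trans (centralizer_le hQK), hmin⟩

end Cfsg.Agent.Lib.Helper69
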