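import Cfsg.Prelude
import Cfsg.Agent.Lib.Helper30.Coprime
import Cfsg.Agent.Lib.Helper41.BG36A
import Cfsg.Agent.Lib.Helper41.BG36B
import Cfsg.Agent.Lib.Helper69.BG36E
import Cfsg.Agent.Lib.Helper69.BG36C0

set_option autoImplicit false

/-! Rung C of the ladder "B-G 3.6": the abelian case. -/

namespace Cfsg.Agent.Lib.Helper69

open Subgroup Cfsg
open Cfsg.Agent.Lib.Helper30
open Cfsg.Agent.Lib.Helper41 (card_fix_le card_fix_mul_le exists_hyperplane cj_max)
open scoped commutatorElement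

variable {G : Type*} [Group G]

/-- `X` is a maximal subgroup of `Q` with nontrivial fixed points on `W`. -/
structure GoodMax (W Q X : Subgroup G) : Prop where
  lt : X < Q
  max : ∀ Z : Subgroup G, X < Z → Z ≤ Q → Z = Q
  fix : W ⊓ centralizer (X : Set G) ≠ ⊥

theorem GoodMax.conj {W Q X : Subgroup G} (h : GoodMax W Q X) {g : G}
    (hgQ : g ∈ normalizer (Q : Set G)) (hgW : g ∈ normalizer (W : Set G)) :
    GoodMax W Q (cj g X) := by
  obtain ⟨h1, h2⟩ := cj_max hgQ h.lt h.max
  refine ⟨h1, h2, ?_⟩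
  intro hbot
  apply h.fix
  rw [eq_bot_iff]
  intro v hv
  have h3 : g * v * g⁻¹ ∈ W ⊓ centralizer ((cj g X : Subgroup G) : Set G) := by
    refine mem_inf.mpr ⟨(mem_normalizer_iff.mp hgW v).mp hv.1, ?_⟩
    rw [mem_centralizer_iff]
    rintro _ ⟨x, hx, rfl⟩
    have h4 := mem_centralizer_iff.mp hv.2 x hx
    change g * x * g⁻¹ * (g * v * g⁻¹) = g * v * g⁻¹ * (g * x * g⁻¹)
    calc g * x * g⁻¹ * (g * v * g⁻¹) = g * (x * v) * g⁻¹ := by group
      _ = g * v * g⁻¹ * (g * x * g⁻¹) := by rw [h4]; group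
  rw [hbot, mem_bot] at h3
  rw [mem_bot]
  exact conj_eq_one_iff.mp h3

theorem le_card_of_ne_bot [Finite G] {p : ℕ} (hp : p.Prime) {U : Subgroup G} (hU : IsPGroup p U)
    (hne : U ≠ ⊥) : p ≤ Nat.card U := by
  have : Fact p.Prime := ⟨hp⟩
  obtain ⟨k, hk⟩ := IsPGroup.iff_card.mp hU
  rcases k with _ | k
  · rw [pow_zero] at hk
    exact absurd (card_eq_one.mp hk) hne
  · rw [hk, pow_succ]
    exact Nat.le_mul_of_pos_left p (pow_pos hp.pos k)

theorem mem_normalizer_of_mem_centralizer {Q X : Subgroup G} (hXQ : X ≤ Q) {c : G}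
    (hc : c ∈ centralizer (Q : Set G)) : c ∈ normalizer (X : Set G) := by
  have h1 : ∀ x ∈ Q, c * x * c⁻¹ = x := by
    intro x hx
    rw [← mem_centralizer_iff.mp hc x hx, mul_inv_cancel_right]
  rw [mem_normalizer_iff]
  intro x
  constructor
  · intro hx
    rw [h1 x (hXQ hx)]
    exact hx
  · intro hx
    have h2 := h1 _ (hXQ hx)
    have h3 : c * x * c⁻¹ = x := by
      have : c * (c * x * c⁻¹) * c⁻¹ = c * x * c⁻¹ := h2
      exact mul_left_cancel (mul_right_cancel this)
    rwa [h3] at hx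

theorem mem_normalizer_centralizer {X : Subgroup G} {g : G} (hg : g ∈ normalizer (X : Set G)) :
    g ∈ normalizer ((centralizer (X : Set G) : Subgroup G) : Set G) := by
  rw [mem_normalizer_iff]
  intro v
  constructor
  · intro hv
    rw [mem_centralizer_iff]
    intro x hx
    have h1 : g⁻¹ * x * g⁻¹⁻¹ ∈ X :=
      (mem_normalizer_iff.mp ((normalizer (X : Set G)).inv_mem hg) x).mp hx
    have h2 := mem_centralizer_iff.mp hv _ h1
    calc x * (g * v * g⁻¹) = g * (g⁻¹ * x * g⁻¹⁻¹ * v) * g⁻¹ := by group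
      _ = g * v * g⁻¹ * x := by rw [h2]; group
  · intro hv
    rw [mem_centralizer_iff]
    intro x hx
    have h1 : g * x * g⁻¹ ∈ X := (mem_normalizer_iff.mp hg x).mp hx
    have h2 := mem_centralizer_iff.mp hv _ h1
    calc x * v = g⁻¹ * (g * x * g⁻¹ * (g * v * g⁻¹)) * g := by group
      _ = v * x := by rw [h2]; group

theorem mem_normalizer_inf {A B : Subgroup G} {g : G} (hA : g ∈ normalizer (A : Set G))
    (hB : g ∈ normalizer (B : Set G)) : g ∈ normalizer ((A ⊓ B : Subgroup G) : Set G) := by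
  rw [mem_normalizer_iff]
  intro v
  rw [mem_inf, mem_inf, ← mem_normalizer_iff.mp hA v, ← mem_normalizer_iff.mp hB v]

variable [Finite G]

theorem abelian_case {p q r : ℕ} (hp : p.Prime) (hq : q.Prime) (hr : r.Prime) (hp2 : p ≠ 2)
    (hr2 : r ≠ 2) (hpq : p ≠ q) (hpr : p ≠ r) (V Q T : Subgroup G) (a : G) (har : orderOf a = r)
    (hV : IsElementaryAbelian p V) (hQ : IsElementaryAbelian q Q) (hT : IsPGroup p T)
    (hQV : Q ≤ normalizer (V : Set G)) (hTV : T ≤ normalizer (V : Set G))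
    (haV : a ∈ normalizer (V : Set G)) (hTQ : T ≤ normalizer (Q : Set G))
    (haQ : a ∈ normalizer (Q : Set G)) (haT : a ∈ normalizer (T : Set G))
    (hfaith : Q ⊓ centralizer (V : Set G) = ⊥) (hfpf : T ⊓ centralizer ({a} : Set G) = ⊥)
    (hTc : ⁅T, T⁆ ≤ centralizer (Q : Set G)) (hQT : ⁅Q, T⁆ = Q) (hQ1 : Q ≠ ⊥) :
    p ^ 2 ≤ Nat.card ↥(V ⊓ centralizer ({a} : Set G)) := by
  have : Fact p.Prime := ⟨hp⟩
  have : Fact q.Prime := ⟨hq⟩
  have hVp : IsPGroup p V := fun v => ⟨1, by rw [pow_one]; exact Subtype.ext (hV.2 v v.2)⟩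
  have hQq : IsPGroup q Q := fun v => ⟨1, by rw [pow_one]; exact Subtype.ext (hQ.2 v v.2)⟩
  set W := ⁅V, Q⁆ with hW
  have hWV : W ≤ V := commutator_le_of_le_normalizer hQV
  have hWc : IsMulCommutative W := isMulCommutative_le hV.1 hWV
  have hQW : Q ≤ normalizer (W : Set G) := le_normalizer_commutator hQV le_normalizer
  have hTW : T ≤ normalizer (W : Set G) := le_normalizer_commutator hTV hTQ
  have haW : a ∈ normalizer (W : Set G) := mem_normalizer_commutator haV haQ
  have hcopVQ : (Nat.card V).Coprime (Nat.card Q) := by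
    obtain ⟨k, hk⟩ := IsPGroup.iff_card.mp hVp
    obtain ⟨l, hl⟩ := IsPGroup.iff_card.mp hQq
    rw [hk, hl]
    exact Nat.Coprime.pow _ _ ((Nat.coprime_primes hp hq).mpr hpq)
  have hfix : W ⊓ centralizer (Q : Set G) = ⊥ :=
    commutator_inf_centralizer_eq_bot V Q hV.1 hQV hcopVQ
  have hWne : W ≠ ⊥ := by
    intro h
    have h1 : V ≤ centralizer (Q : Set G) := commutator_eq_bot_iff_le_centralizer.mp h
    have h2 : Q ≤ Q ⊓ centralizer (V : Set G) := le_inf le_rfl (le_centralizer_iff.mp h1)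
    rw [hfaith] at h2
    exact hQ1 (le_bot_iff.mp h2)
  have hWp : IsPGroup p W := hVp.to_le hWV
  have hcopW : (Nat.card W).Coprime q := by
    obtain ⟨k, hk⟩ := IsPGroup.iff_card.mp hWp
    rw [hk]
    exact Nat.Coprime.pow_left _ ((Nat.coprime_primes hp hq).mpr hpq)
  obtain ⟨Q0, hQ0lt, hQ0max, hQ0fix⟩ := exists_hyperplane W Q hq hWc hWne hQ hcopW hQW hfix
  have hgood0 : GoodMax W Q Q0 := ⟨hQ0lt, hQ0max, hQ0fix⟩
  suffices hmain : p ^ 2 ≤ Nat.card ↥(W ⊓ centralizer ({a} : Set G)) from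
    hmain.trans (card_le_of_le (inf_le_inf_right _ hWV))
  have hcardGood : ∀ X, GoodMax W Q X → p ≤ Nat.card ↥(W ⊓ centralizer (X : Set G)) :=
    fun X hX => le_card_of_ne_bot hp (hWp.to_le inf_le_left) hX.fix
  have hA2 : ∀ X Y, GoodMax W Q X → GoodMax W Q Y → cj a X ≠ X → cj a Y ≠ Y →
      (∀ i : ℕ, cj (a ^ i) X ≠ Y) → p ^ 2 ≤ Nat.card ↥(W ⊓ centralizer ({a} : Set G)) := by
    intro X Y hX hY h1 h2 h3
    have h4 := card_fix_mul_le W Q a hr har hWc hQ.1 hQW hfix haW haQ X Y hX.lt hX.max hY.lt hY.max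
      h1 h2 h3
    calc p ^ 2 = p * p := sq p
      _ ≤ _ := Nat.mul_le_mul (hcardGood X hX) (hcardGood Y hY)
      _ ≤ _ := h4
  have hpowT : ∀ j : ℕ, a ^ j ∈ normalizer (T : Set G) := fun j => pow_mem haT j
  have hgen : ∀ j : ℕ, ¬ r ∣ j → ∃ m : ℕ, (a ^ j) ^ m = a := by
    intro j hj
    apply exists_pow_eq_self_of_coprime
    rw [har]
    exact ((Nat.Prime.coprime_iff_not_dvd hr).mpr hj).symm
  have hfpfpow : ∀ j : ℕ, ¬ r ∣ j → T ⊓ centralizer ({a ^ j} : Set G) = ⊥ := by
    intro j hj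
    obtain ⟨m, hm⟩ := hgen j hj
    rw [eq_bot_iff, ← hfpf]
    intro w hw
    refine mem_inf.mpr ⟨hw.1, ?_⟩
    rw [mem_centralizer_singleton_iff]
    have h1 : Commute w (a ^ j) := mem_centralizer_singleton_iff.mp hw.2
    have h2 := (h1.pow_right m).eq
    rwa [hm] at h2
  by_cases hA : ∃ X, GoodMax W Q X ∧ a ∈ normalizer (X : Set G)
  · obtain ⟨X, hX, haX⟩ := hA
    by_cases hTX : T ≤ normalizer (X : Set G)
    · exfalso
      obtain ⟨x, hxQ, hxX⟩ := SetLike.exists_of_lt hX.lt
      have hgenX := exists_zpow_mul_of_max hQ.1 hX.lt hX.max hxQ hxX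
      have hle : ⁅Q, T⁆ ≤ X := by
        rw [commutator_le]
        intro y hy t ht
        obtain ⟨u, hu, rfl⟩ := exists_eq_commutator_of_fpf haT hfpf ht
        have h1 := commutator_commutator_mem hQ.1 hxQ hgenX (hTQ hu) (hTX hu) haQ haX hy
        rwa [commutatorElement_def u a] at h1
      rw [hQT] at hle
      exact absurd hX.lt (not_lt_of_ge hle)
    · obtain ⟨t, htT, htX⟩ := SetLike.not_le_iff_exists.mp hTX
      set S := T ⊓ normalizer (X : Set G) with hS
      have hST : S ≤ T := inf_le_left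
      have hpowX : ∀ j : ℕ, a ^ j ∈ normalizer (X : Set G) := fun j => pow_mem haX j
      have hpowS : ∀ j : ℕ, a ^ j ∈ normalizer (S : Set G) := by
        intro j
        apply mem_normalizer_of_cj_eq
        rw [hS, cj_inf, cj_eq_of_mem_normalizer (hpowT j), cj_eq_of_mem (hpowX j)]
      have haS : a ∈ normalizer (S : Set G) := by simpa using hpowS 1
      have hSnorm : ∀ s ∈ S, ∀ w ∈ T, w⁻¹ * s * w ∈ S := by
        intro s hs w hw
        refine mem_inf.mpr ⟨T.mul_mem (T.mul_mem (T.inv_mem hw) hs.1) hw, ?_⟩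
        have h1 : ⁅w⁻¹, s⁆ ∈ centralizer (Q : Set G) :=
          hTc (commutator_mem_commutator (T.inv_mem hw) hs.1)
        have h2 : ⁅w⁻¹, s⁆ ∈ normalizer (X : Set G) :=
          mem_normalizer_of_mem_centralizer hX.lt.le h1
        have h3 : w⁻¹ * s * w = ⁅w⁻¹, s⁆ * s := by rw [commutatorElement_def]; group
        rw [h3]
        exact mul_mem h2 hs.2
      have hmoved : ∀ w ∈ T, w ∉ normalizer (X : Set G) → cj a (cj w X) ≠ cj w X := by
        intro w hw hwX heq
        apply hwX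
        have h1 : w⁻¹ * a * w ∈ normalizer (X : Set G) := by
          apply mem_normalizer_of_cj_eq
          rw [cj_mul, cj_mul, heq, cj_inv_cj]
        have h2 : w⁻¹ * a * w * a⁻¹ ∈ S := by
          refine mem_inf.mpr ⟨?_, mul_mem h1 (inv_mem haX)⟩
          have h3 : a * w * a⁻¹ ∈ T := (mem_normalizer_iff.mp haT w).mp hw
          have h4 : w⁻¹ * a * w * a⁻¹ = w⁻¹ * (a * w * a⁻¹) := by group
          rw [h4]
          exact T.mul_mem (T.inv_mem hw) h3
        exact (mem_of_commutator_mem_of_fpf hST haS hfpf hw h2).2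
      have hdiff : ∀ i : ℕ, cj (a ^ i) (cj t X) ≠ cj t⁻¹ X := by
        intro i heq
        apply htX
        set b := a ^ i with hb
        have h1 : t * b * t ∈ normalizer (X : Set G) := by
          apply mem_normalizer_of_cj_eq
          rw [cj_mul, cj_mul, heq, cj_cj_inv]
        have hbX : b ∈ normalizer (X : Set G) := hpowX i
        have hbt : b * t * b⁻¹ ∈ T := (mem_normalizer_iff.mp (hpowT i) t).mp htT
        have hx1 : t * (b * t * b⁻¹) ∈ S := by
          refine mem_inf.mpr ⟨T.mul_mem htT hbt, ?_⟩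
          have h2 : t * (b * t * b⁻¹) = t * b * t * b⁻¹ := by group
          rw [h2]
          exact mul_mem h1 (inv_mem hbX)
        by_cases hri : r ∣ i
        · have hb1 : b = 1 := by
            rw [hb]
            exact orderOf_dvd_iff_pow_eq_one.mp (har ▸ hri)
          rw [hb1] at hx1
          simp only [one_mul, inv_one, mul_one] at hx1
          have hodd : (2 : ℕ).Coprime (orderOf t) := by
            obtain ⟨k, hk⟩ := (IsPGroup.iff_orderOf.mp hT) ⟨t, htT⟩
            rw [Subgroup.orderOf_mk] at hk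
            rw [hk]
            exact Nat.Coprime.pow_right k ((Nat.coprime_primes Nat.prime_two hp).mpr hp2.symm)
          obtain ⟨m, hm⟩ := exists_pow_eq_self_of_coprime hodd
          have h3 : t ∈ S := by
            rw [← hm, pow_two]
            exact S.pow_mem hx1 m
          exact h3.2
        · have hy1 : b * (t * (b * t * b⁻¹)) * b⁻¹ ∈ S := (mem_normalizer_iff.mp (hpowS i) _).mp hx1
          have hx2 : t⁻¹ * (t * (b * t * b⁻¹)) * t ∈ S := hSnorm _ hx1 t htT
          have h2 : t⁻¹ * (a ^ (2 * i)) * t * (a ^ (2 * i))⁻¹ ∈ S := by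
            have h3 : t⁻¹ * (a ^ (2 * i)) * t * (a ^ (2 * i))⁻¹ =
                (t⁻¹ * (t * (b * t * b⁻¹)) * t)⁻¹ * (b * (t * (b * t * b⁻¹)) * b⁻¹) := by
              rw [two_mul, pow_add, ← hb]
              group
            rw [h3]
            exact S.mul_mem (S.inv_mem hx2) hy1
          have hr2i : ¬ r ∣ 2 * i := by
            intro h
            rcases (Nat.Prime.dvd_mul hr).mp h with h | h
            · exact hr2 ((Nat.prime_dvd_prime_iff_eq hr Nat.prime_two).mp h)
            · exact hri h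
          exact (mem_of_commutator_mem_of_fpf hST (hpowS _) (hfpfpow _ hr2i) htT h2).2
      exact hA2 (cj t X) (cj t⁻¹ X) (hX.conj (hTQ htT) (hTW htT))
        (hX.conj (hTQ (inv_mem htT)) (hTW (inv_mem htT))) (hmoved t htT htX)
        (hmoved t⁻¹ (inv_mem htT) (fun h => htX (by simpa using inv_mem h))) hdiff
  · push Not at hA
    have hmovedB : ∀ X, GoodMax W Q X → cj a X ≠ X :=
      fun X hX h => hA X hX (mem_normalizer_of_cj_eq h)
    by_cases hTQ0 : T ≤ normalizer (Q0 : Set G)
    · have h1 := card_fix_le W Q Q0 a hr har hWc hQ.1 hQW hfix haW haQ hQ0lt hQ0max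
        (hmovedB Q0 hgood0)
      refine le_trans ?_ h1
      set V0 := W ⊓ centralizer (Q0 : Set G) with hV0
      have hV0p : IsPGroup p V0 := hWp.to_le inf_le_left
      obtain ⟨k, hk⟩ := IsPGroup.iff_card.mp hV0p
      rw [hk]
      apply Nat.pow_le_pow_right hp.pos
      by_contra hk2
      have hk1 : k = 0 ∨ k = 1 := by omega
      rcases hk1 with rfl | rfl
      · rw [pow_zero] at hk
        exact hQ0fix (card_eq_one.mp hk)
      · rw [pow_one] at hk
        have hcyc : IsCyclic V0 := isCyclic_of_prime_card hk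
        obtain ⟨x, hx⟩ := hcyc.exists_generator
        have hgenV : ∀ y ∈ V0, ∃ k : ℤ, ∃ u ∈ (⊥ : Subgroup G), y = (x : G) ^ k * u := by
          intro y hy
          obtain ⟨k, hk⟩ := mem_zpowers_iff.mp (hx ⟨y, hy⟩)
          refine ⟨k, 1, one_mem _, ?_⟩
          rw [mul_one, ← Subgroup.coe_zpow, hk]
        have hnorm : ∀ g, g ∈ normalizer (W : Set G) → g ∈ normalizer (Q0 : Set G) →
            g ∈ normalizer (V0 : Set G) :=
          fun g h1 h2 => mem_normalizer_inf h1 (mem_normalizer_centralizer h2)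
        have hbot : ∀ g : G, g ∈ normalizer ((⊥ : Subgroup G) : Set G) := by
          intro g
          rw [mem_normalizer_iff]
          intro v
          rw [mem_bot, mem_bot, conj_eq_one_iff]
        have hQQ0 : Q ≤ normalizer (Q0 : Set G) := by
          intro g hg
          apply mem_normalizer_of_mem_centralizer hQ0lt.le
          rw [mem_centralizer_iff]
          intro h hh
          exact comm_of_mem hQ.1 hh hg
        have hle : ⁅Q, T⁆ ≤ centralizer (V0 : Set G) := by
          rw [commutator_le]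
          intro g hg h hh
          rw [mem_centralizer_iff]
          intro y hy
          have h2 := commutator_commutator_mem (isMulCommutative_le hWc inf_le_left) x.2 hgenV
            (hnorm g (hQW hg) (hQQ0 hg)) (hbot g) (hnorm h (hTW hh) (hTQ0 hh)) (hbot h) hy
          rw [mem_bot, commutatorElement_eq_one_iff_mul_comm] at h2
          exact h2
        rw [hQT] at hle
        apply hQ0fix
        rw [eq_bot_iff, ← hfix]
        exact le_inf inf_le_left (le_centralizer_iff.mp hle)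
    · obtain ⟨t, htT, htQ0⟩ := SetLike.not_le_iff_exists.mp hTQ0
      have hgt : GoodMax W Q (cj t Q0) := hgood0.conj (hTQ htT) (hTW htT)
      by_cases hi : ∀ i : ℕ, cj (a ^ i) Q0 ≠ cj t Q0
      · exact hA2 Q0 (cj t Q0) hgood0 hgt (hmovedB _ hgood0) (hmovedB _ hgt) hi
      · exfalso
        push Not at hi
        obtain ⟨i, hi⟩ := hi
        have hri : ¬ r ∣ i := by
          intro h
          have hb1 : a ^ i = 1 := orderOf_dvd_iff_pow_eq_one.mp (har ▸ h)
          rw [hb1, cj_one] at hi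
          exact htQ0 (mem_normalizer_of_cj_eq hi.symm)
        obtain ⟨u, hu, hueq⟩ :=
          exists_eq_commutator_of_fpf (hpowT i) (hfpfpow i hri) (T.inv_mem htT)
        have h1 : cj (a ^ i) (cj u⁻¹ Q0) = cj u⁻¹ Q0 := by
          have h2 : cj (u * a ^ i * u⁻¹) Q0 = Q0 := by
            have h3 : u * a ^ i * u⁻¹ = t⁻¹ * a ^ i := by rw [hueq]; group
            rw [h3, cj_mul, hi, cj_inv_cj]
          rw [cj_mul, cj_mul] at h2
          have h4 := congrArg (cj u⁻¹) h2
          rwa [cj_inv_cj] at h4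
        obtain ⟨m, hm⟩ := hgen i hri
        apply hA (cj u⁻¹ Q0) (hgood0.conj (hTQ (inv_mem hu)) (hTW (inv_mem hu)))
        rw [← hm]
        exact pow_mem (mem_normalizer_of_cj_eq h1) m

end Cfsg.Agent.Lib.Helper69
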