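import Cfsg.Agent.Lib.Helper99.AutPSU.TBasic

set_option autoImplicit false

/-! Rung ISO of the ladder PSU-AUT: isotropic lines of `W` are mapped to lines. -/

namespace Cfsg.Agent.Lib.Helper69.AutPSUT

open Matrix MatrixGroups Cfsg.Agent.Lib.Helper17 Cfsg.Agent.Lib.Helper99.AutPSU

variable {F : Type*} [Field F] [Fintype F] {n q : ℕ}

theorem conj_mem_Q_of_fix (s : ↥(Cfsg.SU n F q)) {a : Fin n → F} {g : ↥(Cfsg.SU n F q)}
    (hg : g ∈ Q q a) (hs : mt s *ᵥ a = a) : s * g * s⁻¹ ∈ Q q a := by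
  have hs' : mt s⁻¹ *ᵥ a = a := by
    conv_lhs => rw [← hs]
    exact mt_inv_mulVec s a
  refine ⟨by rw [mt_mul_mulVec, mt_mul_mulVec, hs', hg.1, hs], ?_⟩
  intro v hv
  have hv' : Cfsg.hermForm n F q (mt s⁻¹ *ᵥ v) a = 0 := by
    rw [herm_inv_left, hs]
    exact hv
  obtain ⟨c, hc⟩ := hg.2 _ hv'
  exact ⟨c, by rw [mt_mul_mulVec, mt_mul_mulVec, hc, mulVec_add, mulVec_smul, mt_mulVec_inv, hs]⟩

theorem wc_conj (hF : Fintype.card F = q ^ 2) {a b d : Fin n → F} (hp : HP q a b)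
    (hda : Cfsg.hermForm n F q d a = 0) (hdb : Cfsg.hermForm n F q d b = 0)
    {τ g : ↥(Cfsg.SU n F q)} {μ : F}
    (hτ : ∀ v, mt τ *ᵥ v = v + (μ * Cfsg.hermForm n F q v d) • d) :
    wc q a b (τ * g * τ⁻¹) =
      wc q a b g + (μ * Cfsg.hermForm n F q (wc q a b g) d) • d := by
  have hτb : mt τ *ᵥ b = b := by
    rw [hτ, herm_zero_comm hF hdb, mul_zero, zero_smul, add_zero]
  have hτb' : mt τ⁻¹ *ᵥ b = b := by
    conv_lhs => rw [← hτb]
    exact mt_inv_mulVec τ b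
  apply wc_of hF hp (k := kc q b g)
  · rw [hermForm_add_left, hermForm_smul_left, wc_b hp, hdb]
    ring
  · rw [mt_mul_mulVec, mt_mul_mulVec, hτb', gb_eq a b g, hτ]
    simp only [hermForm_add_left, hermForm_smul_left, herm_zero_comm hF hda,
      herm_zero_comm hF hdb]
    module

theorem mem_X_of_wc (hF : Fintype.card F = q ^ 2) {a b : Fin n → F} (hp : HP q a b)
    {g : ↥(Cfsg.SU n F q)} (hg : g ∈ Q q a) (h : wc q a b g = 0) : g ∈ X q a := by
  have h1 := kc_rel hF hp hg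
  rw [h, herm_zero_left, add_zero] at h1
  have h2 := el_zero_mem_X hF hp h1
  rwa [← h, el_eq hF hp hg] at h2

theorem wc_lq_congr (hF : Fintype.card F = q ^ 2) {β : MulAut (Cfsg.PSU n F q)}
    {a b : Fin n → F} (hN : Nrm β a b) {g g' : ↥(Cfsg.SU n F q)} (hg : g ∈ Q q a)
    (hg' : g' ∈ Q q a) (h : wc q a b g = wc q a b g') :
    wc q a b (lq β a g) = wc q a b (lq β a g') := by
  have hp := hN.hp
  have hz : g⁻¹ * g' ∈ Q q a := mul_mem (inv_mem hg) hg'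
  have h1 : wc q a b (g * (g⁻¹ * g')) = wc q a b g + wc q a b (g⁻¹ * g') := wc_mul hF hp hg hz
  rw [mul_inv_cancel_left, ← h] at h1
  have h2 : wc q a b (g⁻¹ * g') = 0 := by simpa using h1
  have h3 := mem_X_of_wc hF hp hz h2
  have h4 : lq β a g' = lq β a g * lq β a (g⁻¹ * g') := by
    rw [← lq_mul hF hN hg hz, mul_inv_cancel_left]
  rw [h4, wc_mul hF hp (lq_mem _ _ _) (lq_mem _ _ _), wc_of_mem_X hF hp (lq_mem_X hF hN h3),
    add_zero]

theorem t_iso (hF : Fintype.card F = q ^ 2) (hPerm : PermStmt n F q)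
    {β : MulAut (Cfsg.PSU n F q)} {a b : Fin n → F}
    (hN : Nrm β a b) (w : ↥(Wsub q a b)) (hw : hW w w = 0) (x : F) :
    ∃ y : F, T1 hF hN.hp β (x • w) 0 = y • T1 hF hN.hp β w 0 := by
  have hp := hN.hp
  by_cases hw0 : w = 0
  · subst hw0
    refine ⟨0, ?_⟩
    rw [smul_zero, zero_smul]
    exact t_X hF hN 0 (by rw [zero_pow (q_ne_zero hF), add_zero])
  obtain ⟨c, hcdef⟩ : ∃ c : Fin n → F, c = (w : Fin n → F) := ⟨_, rfl⟩
  have hc0 : c ≠ 0 := fun h => hw0 (Subtype.ext (by rw [← hcdef, h]; rfl))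
  have hcc : Cfsg.hermForm n F q c c = 0 := by rw [hcdef]; exact hw
  have hca : Cfsg.hermForm n F q c a = 0 := by rw [hcdef]; exact w.2.1
  have hcb : Cfsg.hermForm n F q c b = 0 := by rw [hcdef]; exact w.2.2
  have hciso : Iso q c := ⟨hc0, hcc⟩
  obtain ⟨c', hc'iso, hXc, -⟩ := hPerm β c hciso
  obtain ⟨t, ht, ht1⟩ := exists_X_ne_one hF hciso
  obtain ⟨t', ht', hβt⟩ := hXc t ht
  have hne : ∀ {d : Fin n → F} (_ : Iso q d) {s s' : ↥(Cfsg.SU n F q)} (_ : s ∈ X q d)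
      (_ : s ≠ 1) (_ : β (pm s) = pm s'), s' ≠ 1 := by
    intro d hd s s' hs hs1 hβ h1
    apply hs1
    rw [h1, pm_one] at hβ
    have h2 : pm s = pm 1 := by
      rw [pm_one]
      exact (MulEquiv.map_eq_one_iff β).mp hβ
    exact Q_eq_of_pm_eq hF hd.1 (X_le_Q hd.2 hs) (one_mem _) h2
  have ht'1 : t' ≠ 1 := hne hciso ht ht1 hβt
  have hperp : ∀ {d : Fin n → F} (_ : Iso q d) (_ : Cfsg.hermForm n F q c d = 0)
      (_ : ∀ x ∈ X q d, ∃ y ∈ X q d, β (pm x) = pm y), Cfsg.hermForm n F q c' d = 0 := by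
    intro d hd hcd hXd
    obtain ⟨s, hs, hs1⟩ := exists_X_ne_one hF hd
    obtain ⟨s', hs', hβs⟩ := hXd s hs
    have hs'1 := hne hd hs hs1 hβs
    apply perp_of_comm hF hc'iso hd ht' ht'1 hs' hs'1
    rw [pm_mul, pm_mul, ← hβt, ← hβs, ← map_mul, ← map_mul, ← pm_mul, ← pm_mul,
      comm_of_perp hF hciso hd hcd ht hs]
  have hc'a := hperp hp.isoA hca hN.Xa
  have hc'b := hperp (hp.isoB hF) hcb hN.Xb
  obtain ⟨lam, -, hlam⟩ := (mem_X_iff' hF hciso t).1 ht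
  obtain ⟨lam', -, hlam'⟩ := (mem_X_iff' hF hc'iso t').1 ht'
  have hlam0 := l_ne_zero ht1 hlam
  have hta : mt t *ᵥ a = a := ht a (herm_zero_comm hF hca)
  have ht'a : mt t' *ᵥ a = a := ht' a (herm_zero_comm hF hc'a)
  obtain ⟨e, hea, heb, hce⟩ := W_nondeg hF hp hca hcb hc0
  have hec : Cfsg.hermForm n F q e c = 1 := by rw [← hermForm_conj hF, hce, one_pow]
  have hinx : ∀ x : F, InH q a b (x • c) 0 := by
    intro x
    refine ⟨by rw [hermForm_smul_left, hca, mul_zero], by rw [hermForm_smul_left, hcb, mul_zero],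
      ?_⟩
    rw [hermForm_smul_left, hermForm_smul_right, hcc, zero_pow (q_ne_zero hF)]
    ring
  have key : ∀ x : F, ∃ y : F, wc q a b (lq β a (el hF hp (x • c) 0)) = y • c' := by
    intro x
    obtain ⟨w0, hw0def⟩ : ∃ w0 : Fin n → F, w0 = (lam⁻¹ * x) • e := ⟨_, rfl⟩
    have hw0a : Cfsg.hermForm n F q w0 a = 0 := by
      rw [hw0def, hermForm_smul_left, hea, mul_zero]
    have hw0b : Cfsg.hermForm n F q w0 b = 0 := by
      rw [hw0def, hermForm_smul_left, heb, mul_zero]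
    obtain ⟨k0, hk0⟩ := exists_trace_eq hF (- Cfsg.hermForm n F q w0 w0)
      (by rw [neg_pow_q hF, hermForm_conj hF])
    have hin0 : InH q a b w0 k0 := ⟨hw0a, hw0b, by rw [hk0]; ring⟩
    have hu : el hF hp w0 k0 ∈ Q q a := el_mem hF hp _ _
    have hv : el hF hp (x • c) 0 ∈ Q q a := el_mem hF hp _ _
    have hconj : t * el hF hp w0 k0 * t⁻¹ ∈ Q q a := conj_mem_Q_of_fix t hu hta
    have hconj' : t' * lq β a (el hF hp w0 k0) * t'⁻¹ ∈ Q q a :=
      conj_mem_Q_of_fix t' (lq_mem _ _ _) ht'a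
    have hlq : lq β a (t * el hF hp w0 k0 * t⁻¹) = t' * lq β a (el hF hp w0 k0) * t'⁻¹ := by
      apply lq_unique hF hN hconj hconj'
      rw [pm_mul, pm_mul, pm_inv, map_mul, map_mul, map_inv, hβt, lq_spec hN hu, pm_mul, pm_mul,
        pm_inv]
    have hwc1 : wc q a b (t * el hF hp w0 k0 * t⁻¹) = w0 + x • c := by
      rw [wc_conj hF hp hca hcb hlam, wc_el hF hp hin0]
      congr 2
      rw [hw0def, hermForm_smul_left, hec]
      field_simp
    have hwc2 : wc q a b (el hF hp w0 k0 * el hF hp (x • c) 0) = w0 + x • c := by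
      rw [wc_mul hF hp hu hv, wc_el hF hp hin0, wc_el hF hp (hinx x)]
    have h1 := wc_lq_congr hF hN hconj (mul_mem hu hv) (hwc1.trans hwc2.symm)
    rw [hlq, wc_conj hF hp hc'a hc'b hlam', lq_mul hF hN hu hv,
      wc_mul hF hp (lq_mem _ _ _) (lq_mem _ _ _)] at h1
    exact ⟨_, (add_left_cancel h1).symm⟩
  obtain ⟨y1, hy1⟩ := key 1
  obtain ⟨y, hy⟩ := key x
  rw [one_smul] at hy1
  have hy10 : y1 ≠ 0 := by
    rintro rfl
    rw [zero_smul] at hy1
    have hinc : InH q a b c 0 := by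
      have := hinx 1
      rwa [one_smul] at this
    have h1 := mem_X_of_wc hF hp (lq_mem β a _) hy1
    obtain ⟨x0, hx0, hβx0⟩ := surj_of_maps hF β hp.isoA hN.Xa _ h1
    have h2 : pm x0 = pm (el hF hp c 0) :=
      β.injective (by rw [hβx0, lq_spec hN (el_mem hF hp _ _)])
    have h3 := Q_eq_of_pm_eq hF hp.a_ne (X_le_Q hp.a0 hx0) (el_mem hF hp _ _) h2
    have h4 := wc_of_mem_X hF hp hx0
    rw [h3, wc_el hF hp hinc] at h4
    exact hc0 h4
  refine ⟨y * y1⁻¹, ?_⟩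
  apply Subtype.ext
  simp only [T1, Submodule.coe_smul, ← hcdef]
  rw [hy, hy1, smul_smul, mul_assoc, inv_mul_cancel₀ hy10, mul_one]

end Cfsg.Agent.Lib.Helper69.AutPSUT
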