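import Mathlib
import Cfsg.Agent.Lib.Helper30.Coprime

set_option autoImplicit false

/-! BSW ladder, rung MAXINT. -/

namespace Cfsg.Agent.Lib.Helper69.BSW

open Subgroup

theorem sylow_ti_of_local {G : Type*} [Group G] [Finite G] (p : ℕ) [Fact p.Prime]
    (h : ∀ V : Subgroup G, IsPGroup p V → V ≠ ⊥ →
      ∀ S S' : Sylow p (Subgroup.normalizer (V : Set G)), S = S') :
    ∀ P P' : Sylow p G, P ≠ P' → (P : Subgroup G) ⊓ P' = ⊥ := by
  by_contra hcon
  push Not at hcon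
  obtain ⟨P₀, P₀', hne₀, hbot₀⟩ := hcon
  obtain ⟨⟨P, P'⟩, ⟨hne, hbot⟩, hmax⟩ := Set.exists_max_image
    {x : Sylow p G × Sylow p G | x.1 ≠ x.2 ∧ (x.1 : Subgroup G) ⊓ x.2 ≠ ⊥}
    (fun x => Nat.card ((x.1 : Subgroup G) ⊓ x.2 : Subgroup G)) (Set.toFinite _)
    ⟨(P₀, P₀'), hne₀, hbot₀⟩
  simp only at hne hbot hmax
  obtain ⟨V, hV⟩ : ∃ V, V = (P : Subgroup G) ⊓ P' := ⟨_, rfl⟩
  rw [← hV] at hbot
  have hVp : IsPGroup p V := hV ▸ P.2.to_le inf_le_left
  have huniq := h V hVp hbot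
  obtain ⟨S₀⟩ : Nonempty (Sylow p (normalizer (V : Set G))) := inferInstance
  obtain ⟨P'', hP''⟩ := (S₀.2.map (normalizer (V : Set G)).subtype).exists_le_sylow
  -- every `p`-subgroup of `N(V)` lies in `P''`
  have hin : ∀ X : Subgroup G, IsPGroup p X → X ≤ normalizer (V : Set G) → X ≤ P'' := by
    intro X hX hXN
    obtain ⟨S, hS⟩ := (hX.comap_subtype (K := normalizer (V : Set G))).exists_le_sylow
    rw [huniq S S₀] at hS
    refine le_trans ?_ hP''
    intro x hx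
    exact ⟨⟨x, hXN hx⟩, hS hx, rfl⟩
  -- key step
  have key : ∀ Q : Sylow p G, V ≤ Q → V ≠ Q →
      (∀ Q' : Sylow p G, Q ≠ Q' → (Q : Subgroup G) ⊓ Q' ≠ ⊥ →
        Nat.card ((Q : Subgroup G) ⊓ Q' : Subgroup G) ≤ Nat.card V) → Q = P'' := by
    intro Q hVQ hVne hQmax
    by_contra hQP
    obtain ⟨t, htQ, htN, htV⟩ :=
      Cfsg.Agent.Lib.Helper30.exists_mem_normalizer_not_mem Q.2 (lt_of_le_of_ne hVQ hVne)
    have h1 : (Q : Subgroup G) ⊓ normalizer (V : Set G) ≤ P'' :=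
      hin _ (Q.2.to_le inf_le_left) inf_le_right
    have h2 : V < (Q : Subgroup G) ⊓ P'' := by
      refine lt_of_le_of_ne (le_inf hVQ ((le_inf hVQ le_normalizer).trans h1)) ?_
      intro he
      apply htV
      rw [he]
      exact mem_inf.2 ⟨htQ, h1 (mem_inf.2 ⟨htQ, htN⟩)⟩
    have h3 : (Q : Subgroup G) ⊓ P'' ≠ ⊥ := by
      intro he
      rw [he] at h2
      exact not_lt_bot h2
    have h4 := hQmax P'' hQP h3
    have h5 : Nat.card V < Nat.card ((Q : Subgroup G) ⊓ P'' : Subgroup G) :=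
      Set.ncard_lt_ncard h2 (Set.toFinite _)
    omega
  have hVP : V ≠ P := by
    intro he
    apply hne
    have h1 : (P : Subgroup G) ≤ P' := by rw [← he, hV]; exact inf_le_right
    exact Sylow.ext (P.3 P'.2 h1).symm
  have hVP' : V ≠ P' := by
    intro he
    apply hne
    have h1 : (P' : Subgroup G) ≤ P := by rw [← he, hV]; exact inf_le_left
    exact Sylow.ext (P'.3 P.2 h1)
  have e1 : P = P'' := by
    apply key P (hV ▸ inf_le_left) hVP
    intro Q' hQ' hQb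
    rw [hV]
    exact hmax (P, Q') ⟨hQ', hQb⟩
  have e2 : P' = P'' := by
    apply key P' (hV ▸ inf_le_right) hVP'
    intro Q' hQ' hQb
    rw [hV]
    exact hmax (P', Q') ⟨hQ', hQb⟩
  exact hne (e1.trans e2.symm)

end Cfsg.Agent.Lib.Helper69.BSW
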