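import Cfsg.Agent.Lib.Helper50.GIForms

set_option autoImplicit false

/-! GRAPH-INV ladder, rung SP2: in characteristic 2, `PGSp_{2m}(K) ≅ Sp_{2m}(K)`; and the abstract
lemma "similitudes = scalars × isometries". -/

namespace Cfsg.Agent.Lib.Helper69.GI

open Matrix MatrixGroups Cfsg.Agent.Lib.Helper50.GI

variable {K : Type*} [Field K]

theorem eq_of_sq_eq [CharP K 2] {x y : K} (h : x ^ 2 = y ^ 2) : x = y :=
  frobenius_inj K 2 (by simpa [frobenius_def] using h)

theorem exists_unit_sq [Fintype K] [CharP K 2] (c : Kˣ) : ∃ d : Kˣ, (c : K) = (d : K) ^ 2 := by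
  obtain ⟨d, hd⟩ := FiniteField.isSquare_of_char_two (ringChar.eq K 2) (c : K)
  have hd0 : d ≠ 0 := by
    rintro rfl
    exact c.ne_zero (by rw [hd, mul_zero])
  exact ⟨Units.mk0 d hd0, by rw [hd, Units.val_mk0, pow_two]⟩

/-- if the group `X` of matrices is a complement to the scalars in `S` then `projQuot S ≅ X`. -/
theorem projQuot_equiv {ι : Type} [Fintype ι] [DecidableEq ι] (S : Subgroup (GL ι K))
    {X : Type*} [Group X] (f : X →* Matrix ι ι K)
    (hS : ∀ (x : X) (g : GL ι K), g.1 = f x → g ∈ S)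
    (hsc : ∀ (x : X) (c : K), f x = c • (1 : Matrix ι ι K) → x = 1)
    (hsplit : ∀ g ∈ S, ∃ (d : Kˣ) (x : X), g.1 = (d : K) • f x) :
    Nonempty (Cfsg.projQuot S ≃* X) := by
  let F : X →* GL ι K := (Units.map f).comp (toUnits (G := X)).toMonoidHom
  have hF : ∀ x, (F x).1 = f x := fun x => rfl
  let F' : X →* S := F.codRestrict S (fun x => hS x (F x) (hF x))
  let ψ : X →* Cfsg.projQuot S := (QuotientGroup.mk' _).comp F'
  have hinj : Function.Injective ψ := by
    rw [injective_iff_map_eq_one]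
    intro x hx
    have h1 : F' x ∈ (Cfsg.Geo.scalars ι K).subgroupOf S := (QuotientGroup.eq_one_iff _).1 hx
    rw [Subgroup.mem_subgroupOf, Cfsg.Geo.mem_scalars_iff] at h1
    obtain ⟨c, hc⟩ := h1
    exact hsc x c hc
  have hsurj : Function.Surjective ψ := by
    intro q
    obtain ⟨⟨g, hg⟩, rfl⟩ := QuotientGroup.mk_surjective q
    obtain ⟨d, x, hx⟩ := hsplit g hg
    refine ⟨x, ?_⟩
    show (QuotientGroup.mk (F' x) : Cfsg.projQuot S) = QuotientGroup.mk ⟨g, hg⟩
    rw [QuotientGroup.eq, Subgroup.mem_subgroupOf, Cfsg.Geo.mem_scalars_iff]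
    refine ⟨d, ?_⟩
    show ((F x)⁻¹ * g : GL ι K).1 = _
    have h2 : g = F x * ((F x)⁻¹ * g) := by group
    have h3 : (F x).1 * ((F x)⁻¹ * g : GL ι K).1 = (F x).1 * ((d : K) • (1 : Matrix ι ι K)) := by
      rw [← Units.val_mul, ← h2, hx, hF, mul_smul_comm, mul_one]
    have h4 := congrArg (fun M => ((F x)⁻¹ : GL ι K).1 * M) h3
    simpa [← mul_assoc] using h4
  exact ⟨(MulEquiv.ofBijective ψ ⟨hinj, hsurj⟩).symm⟩

theorem pgsp_char2 [Fintype K] [CharP K 2] (m : ℕ) :
    Nonempty (Cfsg.PGSp m K ≃* ↥(Matrix.symplecticGroup (Fin m) K)) := by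
  apply projQuot_equiv (Cfsg.GSp m K) (Matrix.symplecticGroup (Fin m) K).subtype
  · intro x g hg
    show g ∈ simB (J (Fin m) K)
    rw [mem_simB_iff]
    refine ⟨1, ?_⟩
    rw [hg, Units.val_one, one_smul]
    exact SymplecticGroup.mem_iff'.1 x.2
  · intro x c hc
    have hc' : (x : Matrix (Fin m ⊕ Fin m) (Fin m ⊕ Fin m) K) = c • 1 := hc
    have h1 := SymplecticGroup.mem_iff.1 x.2
    rw [hc'] at h1
    have h2 : (c * c) • J (Fin m) K = J (Fin m) K := by
      simpa [smul_smul] using h1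
    apply Subtype.ext
    rw [hc']
    show c • (1 : Matrix (Fin m ⊕ Fin m) (Fin m ⊕ Fin m) K) = 1
    have hc1 : ∀ i : Fin m, c = 1 := by
      intro i
      have h3 := congrFun (congrFun h2 (Sum.inl i)) (Sum.inr i)
      simp [J] at h3
      apply eq_of_sq_eq
      rw [pow_two, h3, one_pow]
    ext a b
    rcases a with i | i <;> rw [hc1 i, one_smul]
  · intro g hg
    have hg' : g ∈ simB (J (Fin m) K) := hg
    rw [mem_simB_iff] at hg'
    obtain ⟨c, hc⟩ := hg'
    obtain ⟨d, hd⟩ := exists_unit_sq c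
    refine ⟨d, ⟨(d : K)⁻¹ • g.1, ?_⟩, ?_⟩
    · rw [SymplecticGroup.mem_iff', transpose_smul, smul_mul, smul_mul, Matrix.mul_smul, hc, hd,
        smul_smul, smul_smul]
      have : (d : K)⁻¹ * (d : K)⁻¹ * (d : K) ^ 2 = 1 := by
        field_simp
      rw [this, one_smul]
    · show g.1 = (d : K) • ((d : K)⁻¹ • g.1)
      rw [smul_smul, mul_inv_cancel₀ d.ne_zero, one_smul]

end Cfsg.Agent.Lib.Helper69.GI
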