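import Cfsg.Agent.Lib.Helper69.GISP2
import Cfsg.Agent.Lib.Helper67.GIBase

set_option autoImplicit false

/-! GRAPH-INV ladder, rung TV2: in characteristic 2 the projective similitude group of a
non-alternating nondegenerate symmetric form in dimension `2m` is the centraliser of a transvection
in `Sp_{2m}(K)`. -/

namespace Cfsg.Agent.Lib.Helper69.GI

open Matrix MatrixGroups Cfsg.Agent.Lib.Helper50.GI

variable {K : Type*} [Field K] {m : ℕ}

theorem J_mulVec_inr (v : Fin m ⊕ Fin m → K) (i : Fin m) :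
    (J (Fin m) K *ᵥ v) (Sum.inr i) = v (Sum.inl i) := by
  simp [J, fromBlocks_mulVec]

theorem J_mulVec_inl (v : Fin m ⊕ Fin m → K) (i : Fin m) :
    (J (Fin m) K *ᵥ v) (Sum.inl i) = - v (Sum.inr i) := by
  simp [J, fromBlocks_mulVec, neg_mulVec]

/-- the vector `e`. -/
def ee (K : Type*) [Field K] (i : Fin m) : Fin m ⊕ Fin m → K := Pi.single (Sum.inr i) 1

/-- the linear form `l` as a vector. -/
def ll (K : Type*) [Field K] (i : Fin m) : Fin m ⊕ Fin m → K := Pi.single (Sum.inl i) 1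

theorem bfJ_ee (i : Fin m) (v : Fin m ⊕ Fin m → K) : bf (J (Fin m) K) (ee K i) v = v (Sum.inl i) := by
  unfold bf ee
  rw [single_one_dotProduct, J_mulVec_inr]

theorem bf_add_mat {ι : Type} [Fintype ι] (N N' : Matrix ι ι K) (u v : ι → K) :
    bf (N + N') u v = bf N u v + bf N' u v := by
  unfold bf
  rw [add_mulVec, dotProduct_add]

theorem bf_vecMulVec {ι : Type} [Fintype ι] (x y u v : ι → K) :
    bf (vecMulVec x y) u v = (u ⬝ᵥ x) * (y ⬝ᵥ v) := by
  unfold bf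
  rw [vecMulVec_mulVec, op_smul_eq_smul, dotProduct_smul, smul_eq_mul, mul_comm]

/-- `E = e lᵀ`. -/
def EE (K : Type*) [Field K] (i : Fin m) : Matrix (Fin m ⊕ Fin m) (Fin m ⊕ Fin m) K :=
  vecMulVec (ee K i) (ll K i)

theorem EE_mulVec (i : Fin m) (v : Fin m ⊕ Fin m → K) : EE K i *ᵥ v = v (Sum.inl i) • ee K i := by
  unfold EE ll
  rw [vecMulVec_mulVec, op_smul_eq_smul, single_one_dotProduct]

/-- `D = l lᵀ`. -/
def DD (K : Type*) [Field K] (i : Fin m) : Matrix (Fin m ⊕ Fin m) (Fin m ⊕ Fin m) K :=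
  vecMulVec (ll K i) (ll K i)

theorem bf_DD (i : Fin m) (u v : Fin m ⊕ Fin m → K) :
    bf (DD K i) u v = u (Sum.inl i) * v (Sum.inl i) := by
  unfold DD ll
  rw [bf_vecMulVec, single_one_dotProduct, dotProduct_single_one]

theorem bfJ_self (v : Fin m ⊕ Fin m → K) : bf (J (Fin m) K) v v = 0 := by
  apply Cfsg.Agent.Lib.Helper67.GI.bf_self_eq_zero (J_transpose (Fin m) K)
  intro i
  rcases i with i | i <;> simp [J]

theorem J_det_ne_zero : (J (Fin m) K).det ≠ 0 := by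
  intro h
  have := J_det_mul_J_det (Fin m) K
  rw [h, mul_zero] at this
  exact zero_ne_one this

theorem EE_mul_EE (i : Fin m) : EE K i * EE K i = 0 := by
  rw [Matrix.ext_iff_mulVec]
  intro v
  rw [← mulVec_mulVec, EE_mulVec, EE_mulVec, zero_mulVec]
  simp [ee]

theorem tt_mem (i : Fin m) : 1 + EE K i ∈ symplecticGroup (Fin m) K := by
  rw [SymplecticGroup.mem_iff']
  apply bf_ext
  intro u v
  rw [← bf_mulVec, add_mulVec, add_mulVec, one_mulVec, one_mulVec, EE_mulVec, EE_mulVec,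
    bf_add_left, bf_add_right, bf_add_right]
  have h1 : bf (J (Fin m) K) u (v (Sum.inl i) • ee K i) = - (v (Sum.inl i) * u (Sum.inl i)) := by
    rw [Cfsg.Agent.Lib.Helper67.GI.bf_skew (J_transpose (Fin m) K)]
    have := Cfsg.Agent.Lib.Helper67.GI.bf_smul_smul (J (Fin m) K) (v (Sum.inl i)) 1 (ee K i) u
    rw [one_smul, mul_one, bfJ_ee] at this
    rw [this]
  have h2 : bf (J (Fin m) K) (u (Sum.inl i) • ee K i) v = u (Sum.inl i) * v (Sum.inl i) := by
    have := Cfsg.Agent.Lib.Helper67.GI.bf_smul_smul (J (Fin m) K) (u (Sum.inl i)) 1 (ee K i) v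
    rw [one_smul, mul_one, bfJ_ee] at this
    exact this
  have h3 : bf (J (Fin m) K) (u (Sum.inl i) • ee K i) (v (Sum.inl i) • ee K i) = 0 := by
    rw [Cfsg.Agent.Lib.Helper67.GI.bf_smul_smul, bfJ_self, mul_zero]
  rw [h1, h2, h3]
  ring

theorem isTransvection_tt (i : Fin m) : Cfsg.IsTransvection (1 + EE K i) := by
  unfold Cfsg.IsTransvection
  rw [add_sub_cancel_left]
  refine ⟨le_antisymm (rank_vecMulVec_le _ _) ?_, EE_mul_EE i⟩
  rw [Nat.one_le_iff_ne_zero]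
  intro h
  unfold Matrix.rank at h
  rw [Submodule.finrank_eq_zero, LinearMap.range_eq_bot] at h
  have h1 : EE K i *ᵥ ll K i = 0 := by
    rw [← mulVecLin_apply, h]
    rfl
  rw [EE_mulVec] at h1
  have h2 := congrFun h1 (Sum.inr i)
  simp [ee, ll] at h2

theorem eq_one_of_scalar [CharP K 2] (x : symplecticGroup (Fin m) K) (c : K)
    (hc : (x : Matrix (Fin m ⊕ Fin m) (Fin m ⊕ Fin m) K) = c • 1) : x = 1 := by
  have h1 := SymplecticGroup.mem_iff.1 x.2
  rw [hc] at h1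
  have h2 : (c * c) • J (Fin m) K = J (Fin m) K := by
    simpa [smul_smul] using h1
  apply Subtype.ext
  rw [hc]
  show c • (1 : Matrix (Fin m ⊕ Fin m) (Fin m ⊕ Fin m) K) = 1
  have hc1 : ∀ i : Fin m, c = 1 := by
    intro i
    have h3 := congrFun (congrFun h2 (Sum.inl i)) (Sum.inr i)
    simp [J] at h3
    apply eq_of_sq_eq
    rw [pow_two, h3, one_pow]
  ext a b
  rcases a with i | i <;> rw [hc1 i, one_smul]

theorem bfJ_symp {A : Matrix (Fin m ⊕ Fin m) (Fin m ⊕ Fin m) K}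
    (hA : A ∈ symplecticGroup (Fin m) K) (u v : Fin m ⊕ Fin m → K) :
    bf (J (Fin m) K) (A *ᵥ u) (A *ᵥ v) = bf (J (Fin m) K) u v := by
  rw [bf_mulVec, SymplecticGroup.mem_iff'.1 hA]

theorem bfJ_smul_ee (i : Fin m) (c : K) (v : Fin m ⊕ Fin m → K) :
    bf (J (Fin m) K) (c • ee K i) v = c * v (Sum.inl i) := by
  have := Cfsg.Agent.Lib.Helper67.GI.bf_smul_smul (J (Fin m) K) c 1 (ee K i) v
  rw [one_smul, mul_one, bfJ_ee] at this
  exact this

theorem apply_inl_of_comm [CharP K 2] {A : Matrix (Fin m ⊕ Fin m) (Fin m ⊕ Fin m) K}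
    (hA : A ∈ symplecticGroup (Fin m) K) (i : Fin m)
    (hc : A * (1 + EE K i) = (1 + EE K i) * A) (v : Fin m ⊕ Fin m → K) :
    (A *ᵥ v) (Sum.inl i) = v (Sum.inl i) := by
  have hE : A * EE K i = EE K i * A := by
    rw [mul_add, add_mul, mul_one, one_mul] at hc
    exact add_left_cancel hc
  have h1 : ∀ v : Fin m ⊕ Fin m → K,
      v (Sum.inl i) • (A *ᵥ ee K i) = (A *ᵥ v) (Sum.inl i) • ee K i := by
    intro v
    rw [← EE_mulVec, mulVec_mulVec, ← hE, ← mulVec_mulVec, EE_mulVec, mulVec_smul]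
  obtain ⟨lam, hlam⟩ : ∃ lam, lam = (A *ᵥ ll K i) (Sum.inl i) := ⟨_, rfl⟩
  have h2 : A *ᵥ ee K i = lam • ee K i := by
    have := h1 (ll K i)
    rw [← hlam] at this
    simpa [ll] using this
  have h3 : ∀ v : Fin m ⊕ Fin m → K, (A *ᵥ v) (Sum.inl i) = lam * v (Sum.inl i) := by
    intro v
    have := congrFun (h1 v) (Sum.inr i)
    rw [h2] at this
    simp [ee] at this
    rw [← this, mul_comm]
  have h4 : ∀ v : Fin m ⊕ Fin m → K, lam * (lam * v (Sum.inl i)) = v (Sum.inl i) := by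
    intro v
    have := bfJ_symp hA (ee K i) v
    rw [h2, bfJ_smul_ee, bfJ_ee, h3] at this
    exact this
  have h5 : lam = 1 := by
    apply eq_of_sq_eq
    have := h4 (ll K i)
    simp [ll] at this
    rw [pow_two, this, one_pow]
  rw [h3, h5, one_mul]

theorem isometry_of_comm [CharP K 2] {A : Matrix (Fin m ⊕ Fin m) (Fin m ⊕ Fin m) K}
    (hA : A ∈ symplecticGroup (Fin m) K) (i : Fin m)
    (hc : A * (1 + EE K i) = (1 + EE K i) * A) :
    Aᵀ * (J (Fin m) K + DD K i) * A = J (Fin m) K + DD K i := by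
  apply bf_ext
  intro u v
  rw [← bf_mulVec, bf_add_mat, bf_add_mat, bfJ_symp hA, bf_DD, bf_DD, apply_inl_of_comm hA i hc,
    apply_inl_of_comm hA i hc]

theorem of_isometry [CharP K 2] {A : Matrix (Fin m ⊕ Fin m) (Fin m ⊕ Fin m) K} (i : Fin m)
    (hA : Aᵀ * (J (Fin m) K + DD K i) * A = J (Fin m) K + DD K i)
    (hsurj : ∀ w, ∃ v, A *ᵥ v = w) :
    A ∈ symplecticGroup (Fin m) K ∧ A * (1 + EE K i) = (1 + EE K i) * A := by
  have h0 : ∀ u v, bf (J (Fin m) K + DD K i) (A *ᵥ u) (A *ᵥ v) = bf (J (Fin m) K + DD K i) u v := by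
    intro u v
    rw [bf_mulVec, hA]
  have h1 : ∀ v, (A *ᵥ v) (Sum.inl i) = v (Sum.inl i) := by
    intro v
    have := h0 v v
    rw [bf_add_mat, bf_add_mat, bfJ_self, bfJ_self, bf_DD, bf_DD, zero_add, zero_add] at this
    apply eq_of_sq_eq
    rw [pow_two, pow_two, this]
  have h2 : ∀ u v, bf (J (Fin m) K) (A *ᵥ u) (A *ᵥ v) = bf (J (Fin m) K) u v := by
    intro u v
    have := h0 u v
    rw [bf_add_mat, bf_add_mat, bf_DD, bf_DD, h1, h1] at this
    exact add_right_cancel this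
  have hAs : A ∈ symplecticGroup (Fin m) K := by
    rw [SymplecticGroup.mem_iff']
    apply bf_ext
    intro u v
    rw [← bf_mulVec, h2]
  refine ⟨hAs, ?_⟩
  have h3 : A *ᵥ ee K i = ee K i := by
    rw [← sub_eq_zero]
    apply Cfsg.Agent.Lib.Helper67.GI.eq_zero_of_bf_left (J_det_ne_zero (K := K) (m := m))
    intro w
    obtain ⟨v, rfl⟩ := hsurj w
    have h4 : bf (J (Fin m) K) (A *ᵥ ee K i - ee K i) (A *ᵥ v) + bf (J (Fin m) K) (ee K i) (A *ᵥ v)
        = bf (J (Fin m) K) (A *ᵥ ee K i) (A *ᵥ v) := by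
      rw [← bf_add_left, sub_add_cancel]
    rw [h2, bfJ_ee, bfJ_ee, h1] at h4
    exact add_eq_right.1 h4
  rw [mul_add, add_mul, mul_one, one_mul]
  congr 1
  rw [Matrix.ext_iff_mulVec]
  intro v
  rw [← mulVec_mulVec, ← mulVec_mulVec, EE_mulVec, EE_mulVec, mulVec_smul, h3, h1]

theorem core_equiv [Fintype K] [CharP K 2] (i : Fin m) :
    Nonempty (Cfsg.projQuot (simB (J (Fin m) K + DD K i)) ≃*
      ↥(Subgroup.centralizer
        ({⟨1 + EE K i, tt_mem i⟩} : Set ↥(symplecticGroup (Fin m) K)))) := by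
  apply projQuot_equiv _ ((symplecticGroup (Fin m) K).subtype.comp (Subgroup.subtype _))
  · intro x g hg
    rw [mem_simB_iff]
    refine ⟨1, ?_⟩
    rw [hg, Units.val_one, one_smul]
    apply isometry_of_comm x.1.2 i
    have := Subgroup.mem_centralizer_singleton_iff.1 x.2
    exact congrArg Subtype.val this
  · intro x c hc
    apply Subtype.ext
    exact eq_one_of_scalar x.1 c hc
  · intro g hg
    rw [mem_simB_iff] at hg
    obtain ⟨c, hc⟩ := hg
    obtain ⟨d, hd⟩ := exists_unit_sq c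
    have hiso : ((d : K)⁻¹ • g.1)ᵀ * (J (Fin m) K + DD K i) * ((d : K)⁻¹ • g.1) =
        J (Fin m) K + DD K i := by
      rw [transpose_smul, smul_mul, smul_mul, Matrix.mul_smul, hc, hd, smul_smul, smul_smul]
      have : (d : K)⁻¹ * (d : K)⁻¹ * (d : K) ^ 2 = 1 := by
        field_simp
      rw [this, one_smul]
    obtain ⟨h1, h2⟩ := of_isometry i hiso (by
      intro w
      refine ⟨(d : K) • (g⁻¹.1 *ᵥ w), ?_⟩
      rw [mulVec_smul, smul_mulVec, smul_smul, mul_inv_cancel₀ d.ne_zero, one_smul, mulVec_mulVec,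
        Units.mul_inv, one_mulVec])
    refine ⟨d, ⟨⟨(d : K)⁻¹ • g.1, h1⟩, ?_⟩, ?_⟩
    · rw [Subgroup.mem_centralizer_singleton_iff]
      exact Subtype.ext h2
    · show g.1 = (d : K) • ((d : K)⁻¹ • g.1)
      rw [smul_smul, mul_inv_cancel₀ d.ne_zero, one_smul]

theorem J_mulVec_ee (i : Fin m) : J (Fin m) K *ᵥ ee K i = - ll K i := by
  funext x
  rcases x with j | j
  · rw [J_mulVec_inl]
    by_cases h : j = i
    · subst h; simp [ee, ll]
    · simp [ee, ll, h]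
  · rw [J_mulVec_inr]
    simp [ee, ll]

theorem DD_mulVec (i : Fin m) (v : Fin m ⊕ Fin m → K) : DD K i *ᵥ v = v (Sum.inl i) • ll K i := by
  unfold DD
  rw [vecMulVec_mulVec, op_smul_eq_smul]
  congr 1
  unfold ll
  rw [single_one_dotProduct]

theorem NN_eq [CharP K 2] (i : Fin m) : J (Fin m) K + DD K i = J (Fin m) K * (1 + EE K i) := by
  rw [Matrix.ext_iff_mulVec]
  intro v
  have hneg : - ll K i = ll K i := by
    funext x
    exact CharTwo.neg_eq _
  rw [← mulVec_mulVec, add_mulVec, add_mulVec, one_mulVec, EE_mulVec, mulVec_add, mulVec_smul,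
    J_mulVec_ee, DD_mulVec, hneg]

theorem NN_det_ne_zero [CharP K 2] (i : Fin m) : (J (Fin m) K + DD K i).det ≠ 0 := by
  rw [NN_eq, det_mul]
  exact mul_ne_zero J_det_ne_zero (SymplecticGroup.symplectic_det (tt_mem i)).ne_zero

theorem NN_transpose [CharP K 2] (i : Fin m) :
    (J (Fin m) K + DD K i)ᵀ = J (Fin m) K + DD K i := by
  have hneg : - J (Fin m) K = J (Fin m) K := by
    ext x y
    exact CharTwo.neg_eq _
  rw [transpose_add, J_transpose, hneg]
  congr 1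
  unfold DD
  rw [transpose_vecMulVec]

theorem bf_submatrix {ι κ : Type} [Fintype ι] [Fintype κ] (N : Matrix ι ι K) (e : ι ≃ κ)
    (u v : κ → K) : bf N (u ∘ e) (v ∘ e) = bf (N.submatrix e.symm e.symm) u v := by
  unfold bf
  rw [submatrix_mulVec_equiv, Equiv.symm_symm]
  unfold dotProduct
  rw [← Equiv.sum_comp e]
  simp

theorem simB_char2_nonalt [Fintype K] [CharP K 2] {m : ℕ} (hm : 1 ≤ m) :
    ∃ t : ↥(Matrix.symplecticGroup (Fin m) K),
      Cfsg.IsTransvection (t : Matrix (Fin m ⊕ Fin m) (Fin m ⊕ Fin m) K) ∧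
      ∀ N : Matrix (Fin (2 * m)) (Fin (2 * m)) K, Nᵀ = N → N.det ≠ 0 → (∃ i, N i i ≠ 0) →
        Nonempty (Cfsg.projQuot (simB N) ≃*
          ↥(Subgroup.centralizer ({t} : Set ↥(Matrix.symplecticGroup (Fin m) K)))) := by
  obtain ⟨i0⟩ : Nonempty (Fin m) := ⟨⟨0, hm⟩⟩
  refine ⟨⟨1 + EE K i0, tt_mem i0⟩, isTransvection_tt i0, ?_⟩
  intro N hN hd hi
  obtain ⟨e⟩ : Nonempty (Fin m ⊕ Fin m ≃ Fin (2 * m)) :=
    ⟨finSumFinEquiv.trans (finCongr (two_mul m).symm)⟩
  obtain ⟨N0, hN0⟩ : ∃ N0, N0 = (J (Fin m) K + DD K i0).submatrix e.symm e.symm := ⟨_, rfl⟩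
  have hN0T : N0ᵀ = N0 := by rw [hN0, transpose_submatrix, NN_transpose]
  have hN0d : N0.det ≠ 0 := by
    rw [hN0, det_submatrix_equiv_self]
    exact NN_det_ne_zero i0
  have hN0i : ∃ i, N0 i i ≠ 0 := by
    refine ⟨e (Sum.inl i0), ?_⟩
    rw [hN0, submatrix_apply, Equiv.symm_apply_apply]
    simp [J, DD, ll, vecMulVec_apply]
  obtain ⟨P, hP⟩ := Cfsg.Agent.Lib.Helper67.GI.congr_char2 N0 N hN0T hN hN0d hd hN0i hi
  obtain ⟨e1⟩ := simB_congr N0 N P 1 one_ne_zero (by rw [one_smul]; exact hP)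
  obtain ⟨e2⟩ := sim_equiv_of_form (bf N0) (bf (J (Fin m) K + DD K i0))
    (LinearEquiv.funCongrLeft K K e) 1 one_ne_zero (by
      intro u v
      rw [one_mul, hN0, ← bf_submatrix]
      rfl)
  obtain ⟨e3⟩ := core_equiv (K := K) i0
  exact ⟨(e1.trans e2).trans e3⟩

end Cfsg.Agent.Lib.Helper69.GI
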