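import Cfsg.Prelude
import Cfsg.Agent.Lib.Helper30.Coprime
import Cfsg.Agent.Lib.Helper12.Card
import Cfsg.Agent.Lib.Helper1.PQLemma
import Cfsg.Agent.Lib.Helper53.Basic
import Cfsg.Agent.Lib.Helper69.BG36C0
import Cfsg.Agent.Lib.Helper69.BG36C
import Cfsg.Agent.S0599

set_option autoImplicit false

/-! An `S₃`-module lemma for the ladder "K-S ch. 12": if an elementary abelian best offender `A`
on the elementary abelian `2`-group `U` normalizes the action of an element `y` of order `3` and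
some element of `A` inverts it, then `[U, y]` has order `4`. -/

namespace Cfsg.Agent.Lib.Helper69.JC

open Cfsg Subgroup
open scoped commutatorElement

variable {G : Type*} [Group G]

theorem mem_zpowers_of_order_three {y g : G} (hy3 : orderOf y = 3) (hg : g ∈ zpowers y) :
    g = 1 ∨ g = y ∨ g = y⁻¹ := by
  obtain ⟨k, rfl⟩ := mem_zpowers_iff.mp hg
  have hy : y ^ 3 = 1 := by rw [← hy3]; exact pow_orderOf_eq_one y
  have h1 : y ^ k = y ^ (k % 3) := by
    have := zpow_mod_orderOf y k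
    rw [hy3] at this
    exact this.symm
  have h2 : k % 3 = 0 ∨ k % 3 = 1 ∨ k % 3 = 2 := by omega
  rcases h2 with h | h | h
  · left; rw [h1, h, zpow_zero]
  · right; left; rw [h1, h, zpow_one]
  · right; right
    rw [h1, h]
    have : y ^ (2 : ℤ) * y = 1 := by
      rw [← zpow_add_one]
      exact_mod_cast hy
    exact eq_inv_of_mul_eq_one_left this

theorem card_commutator_eq_four [Finite G] (U A : Subgroup G) (y a : G)
    (hU : IsElementaryAbelian 2 U) (hy3 : orderOf y = 3) (hyU : y ∈ normalizer (U : Set G))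
    (hA : IsElementaryAbelian 2 A) (hAU : A ≤ normalizer (U : Set G))
    (hAW : A ≤ normalizer ((⁅U, zpowers y⁆ : Subgroup G) : Set G))
    (htype : ∀ b ∈ A, (∀ u ∈ U, b * (y * u * y⁻¹) * b⁻¹ = y * (b * u * b⁻¹) * y⁻¹) ∨
      (∀ u ∈ U, b * (y * u * y⁻¹) * b⁻¹ = y⁻¹ * (b * u * b⁻¹) * y))
    (ha : a ∈ A) (hainv : ∀ u ∈ U, a * (y * u * y⁻¹) * a⁻¹ = y⁻¹ * (a * u * a⁻¹) * y)
    (hbest : IsBestOffenderOn 2 U A) (hne : ⁅U, zpowers y⁆ ≠ ⊥) :
    Nat.card ↥(⁅U, zpowers y⁆ : Subgroup G) = 4 := by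
  have : Fact (Nat.Prime 2) := ⟨Nat.prime_two⟩
  obtain ⟨W, hW⟩ : ∃ W, W = ⁅U, zpowers y⁆ := ⟨_, rfl⟩
  rw [← hW] at hAW hne ⊢
  have hUc : ∀ u ∈ U, ∀ v ∈ U, u * v = v * u := fun u hu v hv => comm_of_mem hU.1 hu hv
  have hsq : ∀ u ∈ U, u * u = 1 := by
    intro u hu
    have := hU.2 u hu
    rwa [pow_two] at this
  have hUinv : ∀ u ∈ U, u⁻¹ = u := fun u hu => inv_eq_of_mul_eq_one_left (hsq u hu)
  have hAsq : ∀ b ∈ A, b⁻¹ = b := by
    intro b hb
    have := hA.2 b hb
    rw [pow_two] at this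
    exact inv_eq_of_mul_eq_one_left this
  have hYU : zpowers y ≤ normalizer (U : Set G) := zpowers_le.mpr hyU
  have hUp : IsPGroup 2 U := fun v => ⟨1, by rw [pow_one]; exact Subtype.ext (hU.2 v v.2)⟩
  have hAp : IsPGroup 2 A := fun v => ⟨1, by rw [pow_one]; exact Subtype.ext (hA.2 v v.2)⟩
  have hcardY : Nat.card (zpowers y) = 3 := by rw [Nat.card_zpowers, hy3]
  have hcop : (Nat.card U).Coprime (Nat.card (zpowers y)) := by
    rw [hcardY]
    obtain ⟨k, hk⟩ := IsPGroup.iff_card.mp hUp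
    rw [hk]
    exact Nat.Coprime.pow_left k (by norm_num)
  have hWU : W ≤ U := hW ▸ Helper30.commutator_le_of_le_normalizer hYU
  have hWfix : W ⊓ centralizer (zpowers y : Set G) = ⊥ :=
    hW ▸ commutator_inf_centralizer_eq_bot U (zpowers y) hU.1 hYU hcop
  have hWW : ⁅W, zpowers y⁆ = W := by
    rw [hW]
    exact Helper30.commutator_commutator_eq hYU hcop.symm (Or.inl inferInstance)
  have hyW : y ∈ normalizer (W : Set G) :=
    hW ▸ mem_normalizer_commutator hyU (le_normalizer (mem_zpowers y))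
  have cjm : ∀ {X : Subgroup G} {g x : G}, g ∈ normalizer (X : Set G) → x ∈ X →
      g * x * g⁻¹ ∈ X := fun hg hx => (mem_normalizer_iff.mp hg _).mp hx
  have cjm' : ∀ {X : Subgroup G} {g x : G}, g ∈ normalizer (X : Set G) → x ∈ X →
      g⁻¹ * x * g ∈ X := by
    intro X g x hg hx
    have := cjm (inv_mem hg) hx
    rwa [inv_inv] at this
  have hy3' : y ^ 3 = 1 := by rw [← hy3]; exact pow_orderOf_eq_one y
  have hyy : y * y = y⁻¹ := by
    apply eq_inv_of_mul_eq_one_left
    rw [← hy3', pow_succ, pow_two]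
  have hcentY : ∀ u, y * u = u * y → u ∈ centralizer (zpowers y : Set G) := by
    intro u hu
    rw [mem_centralizer_iff]
    intro h hh
    obtain ⟨k, rfl⟩ := mem_zpowers_iff.mp hh
    exact ((show Commute y u from hu).zpow_left k).eq
  -- the norm vanishes on `W`
  have hnorm : ∀ u ∈ W, u * (y * u * y⁻¹) * (y⁻¹ * u * y) = 1 := by
    intro u hu
    have hq : y * u * y⁻¹ ∈ W := cjm hyW hu
    have hr : y⁻¹ * u * y ∈ W := cjm' hyW hu
    have hmem : u * (y * u * y⁻¹) * (y⁻¹ * u * y) ∈ W ⊓ centralizer (zpowers y : Set G) := by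
      refine mem_inf.mpr ⟨W.mul_mem (W.mul_mem hu hq) hr, hcentY _ ?_⟩
      have e1 : y * (y * u * y⁻¹) * y⁻¹ = y⁻¹ * u * y := by
        calc y * (y * u * y⁻¹) * y⁻¹ = (y * y) * u * (y * y)⁻¹ := by group
          _ = y⁻¹ * u * y := by rw [hyy, inv_inv]
      have e2 : y * (u * (y * u * y⁻¹) * (y⁻¹ * u * y)) * y⁻¹ =
          (y * u * y⁻¹) * (y⁻¹ * u * y) * u := by
        calc y * (u * (y * u * y⁻¹) * (y⁻¹ * u * y)) * y⁻¹
            = (y * u * y⁻¹) * (y * (y * u * y⁻¹) * y⁻¹) * u := by group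
          _ = (y * u * y⁻¹) * (y⁻¹ * u * y) * u := by rw [e1]
      have e3 : (y * u * y⁻¹) * (y⁻¹ * u * y) * u = u * (y * u * y⁻¹) * (y⁻¹ * u * y) := by
        rw [hUc _ (U.mul_mem (hWU hq) (hWU hr)) u (hWU hu)]
        simp only [mul_assoc]
      rw [e3] at e2
      exact mul_inv_eq_iff_eq_mul.mp e2
    rw [hWfix, mem_bot] at hmem
    exact hmem
  -- generation
  have gen : ∀ (E : Subgroup G) (a' : G), E ≤ W → y ∈ normalizer (E : Set G) → a' ∈ A →
      (∀ u ∈ U, a' * (y * u * y⁻¹) * a'⁻¹ = y⁻¹ * (a' * u * a'⁻¹) * y) →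
      (∀ u ∈ W, u * (a' * u * a'⁻¹) ∈ E) → E = W := by
    intro E a' hEW hyE ha' hinv hE
    have htrans : ∀ u v w : G, v ∈ U → u * v ∈ E → v * w ∈ E → u * w ∈ E := by
      intro u v w hv h1 h2
      have : u * w = (u * v) * (v * w) := by
        calc u * w = u * (v * v) * w := by rw [hsq v hv, mul_one]
          _ = (u * v) * (v * w) := by group
      rw [this]
      exact E.mul_mem h1 h2
    have hconj : ∀ u v : G, u * v ∈ E → (y * u * y⁻¹) * (y * v * y⁻¹) ∈ E := by
      intro u v h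
      have : (y * u * y⁻¹) * (y * v * y⁻¹) = y * (u * v) * y⁻¹ := by group
      rw [this]
      exact cjm hyE h
    have key : ∀ u ∈ W, (y * u * y⁻¹) * u ∈ E ∧ (y⁻¹ * u * y) * u ∈ E := by
      intro u hu
      have hu1 : a' * u * a'⁻¹ ∈ W := cjm (hAW ha') hu
      have h1 : u * (a' * u * a'⁻¹) ∈ E := hE u hu
      have h2 := hconj _ _ h1
      have hyu1 : y * (a' * u * a'⁻¹) * y⁻¹ ∈ W := cjm hyW hu1
      have h3 := hE _ hyu1
      have e1 : a' * (y * (a' * u * a'⁻¹) * y⁻¹) * a'⁻¹ = y⁻¹ * u * y := by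
        rw [hinv _ (hWU hu1)]
        have : a' * (a' * u * a'⁻¹) * a'⁻¹ = u := by
          rw [hAsq a' ha']
          have h4 : a' * a' = 1 := by
            have := hA.2 a' ha'
            rwa [pow_two] at this
          calc a' * (a' * u * a') * a' = (a' * a') * u * (a' * a') := by group
            _ = u := by rw [h4, one_mul, mul_one]
        rw [this]
      rw [e1] at h3
      have h4 : (y * u * y⁻¹) * (y⁻¹ * u * y) ∈ E := htrans _ _ _ (hWU hyu1) h2 h3
      have h5 := hconj _ _ h4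
      have e2 : y * (y * u * y⁻¹) * y⁻¹ = y⁻¹ * u * y := by
        calc y * (y * u * y⁻¹) * y⁻¹ = (y * y) * u * (y * y)⁻¹ := by group
          _ = y⁻¹ * u * y := by rw [hyy, inv_inv]
      have e3 : y * (y⁻¹ * u * y) * y⁻¹ = u := by group
      rw [e2, e3] at h5
      exact ⟨htrans _ _ _ (hWU (cjm' hyW hu)) h4 h5, h5⟩
    apply le_antisymm hEW
    rw [← hWW, commutator_le]
    intro u hu g hg
    have e : ⁅u, g⁆ = u * (g * u * g⁻¹) := by
      rw [commutatorElement_def]
      calc u * g * u⁻¹ * g⁻¹ = u * (g * u⁻¹ * g⁻¹) := by group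
        _ = u * (g * u * g⁻¹) := by rw [hUinv u (hWU hu)]
    rw [e]
    rcases mem_zpowers_of_order_three hy3 hg with rfl | rfl | rfl
    · simp only [one_mul, inv_one, mul_one]
      rw [hsq u (hWU hu)]
      exact E.one_mem
    · rw [hUc u (hWU hu) _ (hWU (cjm hyW hu))]
      exact (key u hu).1
    · rw [inv_inv, hUc u (hWU hu) _ (hWU (cjm' hyW hu))]
      exact (key u hu).2
  -- fixed points of `a` on `W` are commutators
  have fixa : ∀ u ∈ W, a * u * a⁻¹ = u → u ∈ ⁅W, A⁆ := by
    intro u hu hau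
    have hw : y * u * y⁻¹ ∈ W := cjm hyW hu
    have hr : y⁻¹ * u * y ∈ W := cjm' hyW hu
    have h1 : ⁅y * u * y⁻¹, a⁆ ∈ ⁅W, A⁆ := commutator_mem_commutator hw ha
    have e1 : a * (y * u * y⁻¹) * a⁻¹ = y⁻¹ * u * y := by rw [hainv u (hWU hu), hau]
    have e2 : ⁅y * u * y⁻¹, a⁆ = u := by
      rw [commutatorElement_def]
      calc y * u * y⁻¹ * a * (y * u * y⁻¹)⁻¹ * a⁻¹
          = (y * u * y⁻¹) * (a * (y * u * y⁻¹) * a⁻¹)⁻¹ := by group
        _ = (y * u * y⁻¹) * (y⁻¹ * u * y) := by rw [e1, hUinv _ (hWU hr)]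
        _ = u⁻¹ := by
            apply eq_inv_of_mul_eq_one_right
            rw [← mul_assoc]
            exact hnorm u hu
        _ = u := hUinv u (hWU hu)
    rwa [e2] at h1
  -- Timmesfeld replacement
  obtain ⟨hb, hfix, -⟩ := Cfsg.Agent.S0599.result U A hU hAU hbest W hWU
  obtain ⟨Ad, hAd⟩ : ∃ Ad, Ad = A ⊓ centralizer ((⁅W, A⁆ : Subgroup G) : Set G) := ⟨_, rfl⟩
  rw [← hAd] at hb hfix
  have hAdA : Ad ≤ A := hAd ▸ inf_le_left
  have hAdc : Ad ≤ centralizer ((⁅W, A⁆ : Subgroup G) : Set G) := hAd ▸ inf_le_right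
  -- elements of `Ad` commuting with the action of `y` centralize `W`
  have cent : ∀ b ∈ Ad, (∀ u ∈ U, b * (y * u * y⁻¹) * b⁻¹ = y * (b * u * b⁻¹) * y⁻¹) →
      ∀ a' ∈ A, (∀ u ∈ U, a' * (y * u * y⁻¹) * a'⁻¹ = y⁻¹ * (a' * u * a'⁻¹) * y) →
      ∀ u ∈ W, b * u * b⁻¹ = u := by
    intro b hb' hcomm a' ha' hinv
    let E : Subgroup G := W ⊓ centralizer ({b} : Set G)
    have hEmem : ∀ u, u ∈ E ↔ u ∈ W ∧ b * u * b⁻¹ = u := by
      intro u
      rw [mem_inf, mem_centralizer_singleton_iff]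
      constructor
      · rintro ⟨h1, h2⟩
        exact ⟨h1, by rw [← h2, mul_inv_cancel_right]⟩
      · rintro ⟨h1, h2⟩
        exact ⟨h1, (mul_inv_eq_iff_eq_mul.mp h2).symm⟩
    have hyE : y ∈ normalizer (E : Set G) := by
      apply Helper53.cj_eq_self_iff.1
      apply Helper53.cj_eq_of_le
      rintro _ ⟨u, hu, rfl⟩
      change y * u * y⁻¹ ∈ E
      obtain ⟨h1, h2⟩ := (hEmem u).mp hu
      exact (hEmem _).mpr ⟨cjm hyW h1, by rw [hcomm u (hWU h1), h2]⟩
    have hEW := gen E a' inf_le_left hyE ha' hinv (by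
      intro u hu
      refine (hEmem _).mpr ⟨W.mul_mem hu (cjm (hAW ha') hu), ?_⟩
      have e : u * (a' * u * a'⁻¹) = ⁅u, a'⁆ := by
        rw [commutatorElement_def]
        calc u * (a' * u * a'⁻¹) = u * (a' * u⁻¹ * a'⁻¹) := by rw [hUinv u (hWU hu)]
          _ = u * a' * u⁻¹ * a'⁻¹ := by group
      rw [e]
      have h1 := mem_centralizer_iff.mp (hAdc hb') _ (commutator_mem_commutator hu ha')
      rw [← h1, mul_inv_cancel_right])
    intro u hu
    rw [← hEW] at hu
    exact ((hEmem u).mp hu).2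
  have hWAW : ⁅W, A⁆ ≤ W := Helper30.commutator_le_of_le_normalizer hAW
  have hWp : IsPGroup 2 W := hUp.to_le hWU
  have abn : ∀ {X Z : Subgroup G}, X ≤ U → Z ≤ U → X ≤ normalizer (Z : Set G) := by
    intro X Z hX hZ x hx
    rw [mem_normalizer_iff]
    intro z
    constructor
    · intro hz
      rw [hUc x (hX hx) z (hZ hz), mul_inv_cancel_right]
      exact hz
    · intro hz
      have h1 : z ∈ U := by
        have := U.mul_mem (U.mul_mem (U.inv_mem (hX hx)) (hZ hz)) (hX hx)
        simpa [mul_assoc] using this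
      rw [hUc x (hX hx) z h1, mul_inv_cancel_right] at hz
      exact hz
  have hupper : Nat.card W ≤ 4 := by
    by_cases hall : ∀ b ∈ Ad, ∀ u ∈ U, b * (y * u * y⁻¹) * b⁻¹ = y * (b * u * b⁻¹) * y⁻¹
    · exfalso
      apply Helper1.commutator_ne_self_of_pgroups hWp hAp hAW hne
      apply le_antisymm hWAW
      intro u hu
      have h1 : u ∈ U ⊓ centralizer (Ad : Set G) := by
        refine mem_inf.mpr ⟨hWU hu, ?_⟩
        rw [mem_centralizer_iff]
        intro b hb'
        have := cent b hb' (hall b hb') a ha hainv u hu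
        exact mul_inv_eq_iff_eq_mul.mp this
      rw [hfix] at h1
      have hn : ⁅W, A⁆ ≤ normalizer ((U ⊓ centralizer (A : Set G) : Subgroup G) : Set G) :=
        abn (hWAW.trans hWU) inf_le_left
      obtain ⟨w, hw, c, hc, rfl⟩ := (Helper53.mem_sup_of_le_normalizer hn).mp h1
      have hcW : c ∈ W := by
        have := W.mul_mem (W.inv_mem (hWAW hw)) hu
        rwa [inv_mul_cancel_left] at this
      have hca : a * c * a⁻¹ = c := by
        have := mem_centralizer_iff.mp (mem_inf.mp hc).2 a ha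
        rw [this, mul_inv_cancel_right]
      exact mul_mem hw (fixa c hcW hca)
    · push Not at hall
      obtain ⟨a', ha', hnc⟩ := hall
      have hinv' : ∀ u ∈ U, a' * (y * u * y⁻¹) * a'⁻¹ = y⁻¹ * (a' * u * a'⁻¹) * y := by
        rcases htype a' (hAdA ha') with h | h
        · obtain ⟨u, hu, hne'⟩ := hnc
          exact absurd (h u hu) hne'
        · exact h
      -- inverting elements also invert `y⁻¹`
      have invinv : ∀ b ∈ A, (∀ u ∈ U, b * (y * u * y⁻¹) * b⁻¹ = y⁻¹ * (b * u * b⁻¹) * y) →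
          ∀ v ∈ U, b * (y⁻¹ * v * y) * b⁻¹ = y * (b * v * b⁻¹) * y⁻¹ := by
        intro b _ hbi v hv
        have h1 := hbi (y⁻¹ * v * y) (cjm' hyU hv)
        have e : y * (y⁻¹ * v * y) * y⁻¹ = v := by group
        rw [e] at h1
        rw [h1]
        group
      obtain ⟨B, hB⟩ : ∃ B, B = Ad ⊓ centralizer (W : Set G) := ⟨_, rfl⟩
      have hBAd : B ≤ Ad := hB ▸ inf_le_left
      have hBW : B ≤ centralizer (W : Set G) := hB ▸ inf_le_right
      have hcentB : ∀ b ∈ Ad, (∀ u ∈ U, b * (y * u * y⁻¹) * b⁻¹ = y * (b * u * b⁻¹) * y⁻¹) →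
          b ∈ B := by
        intro b hb' hc
        rw [hB]
        refine mem_inf.mpr ⟨hb', ?_⟩
        rw [mem_centralizer_iff]
        intro u hu
        have := cent b hb' hc a ha hainv u hu
        exact (mul_inv_eq_iff_eq_mul.mp this).symm
      have hAdsup : Ad ≤ zpowers a' ⊔ B := by
        intro b hb'
        rcases htype b (hAdA hb') with h | h
        · exact mem_sup_right (hcentB b hb' h)
        · have h1 : a' * b ∈ B := by
            apply hcentB _ (Ad.mul_mem ha' hb')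
            intro u hu
            calc a' * b * (y * u * y⁻¹) * (a' * b)⁻¹
                = a' * (b * (y * u * y⁻¹) * b⁻¹) * a'⁻¹ := by group
              _ = a' * (y⁻¹ * (b * u * b⁻¹) * y) * a'⁻¹ := by rw [h u hu]
              _ = y * (a' * (b * u * b⁻¹) * a'⁻¹) * y⁻¹ :=
                  invinv a' (hAdA ha') hinv' _ (cjm (hAU (hAdA hb')) hu)
              _ = y * (a' * b * u * (a' * b)⁻¹) * y⁻¹ := by group
          have e : b = a'⁻¹ * (a' * b) := by group
          rw [e]
          exact mul_mem (mem_sup_left (inv_mem (mem_zpowers a'))) (mem_sup_right h1)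
      have hAc : ∀ b ∈ A, ∀ c ∈ A, b * c = c * b := fun b hb c hc => comm_of_mem hA.1 hb hc
      have hza : zpowers a' ≤ normalizer (B : Set G) := by
        rw [zpowers_le, mem_normalizer_iff]
        intro z
        constructor
        · intro hz
          rw [hAc a' (hAdA ha') z (hAdA (hBAd hz)), mul_inv_cancel_right]
          exact hz
        · intro hz
          have h1 : z ∈ A := by
            have := A.mul_mem (A.mul_mem (A.inv_mem (hAdA ha')) (hAdA (hBAd hz))) (hAdA ha')
            simpa [mul_assoc] using this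
          rw [hAc a' (hAdA ha') z h1, mul_inv_cancel_right] at hz
          exact hz
      have hcza : Nat.card (zpowers a') ≤ 2 := by
        rw [Nat.card_zpowers]
        exact Nat.le_of_dvd (by norm_num) (orderOf_dvd_of_pow_eq_one (hA.2 a' (hAdA ha')))
      have hcAd : Nat.card Ad ≤ 2 * Nat.card B := by
        have h1 := Helper12.card_sup_mul_card_inf' (zpowers a') B hza
        have h2 : Nat.card Ad ≤ Nat.card (zpowers a' ⊔ B : Subgroup G) := card_le_of_le hAdsup
        have h3 : 0 < Nat.card (zpowers a' ⊓ B : Subgroup G) := Nat.card_pos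
        nlinarith [Nat.card_pos (α := B)]
      obtain ⟨X, hX⟩ : ∃ X, X = U ⊓ centralizer (B : Set G) := ⟨_, rfl⟩
      obtain ⟨X0, hX0⟩ : ∃ X0, X0 = U ⊓ centralizer (Ad : Set G) := ⟨_, rfl⟩
      have hoff := hb.1 B hBAd
      rw [← hX, ← hX0] at hoff
      have hXX0 : Nat.card X ≤ 2 * Nat.card X0 := by
        have h3 : 0 < Nat.card B := Nat.card_pos
        have h4 : Nat.card B * Nat.card X ≤ Nat.card B * (2 * Nat.card X0) := by
          calc Nat.card B * Nat.card X ≤ Nat.card Ad * Nat.card X0 := hoff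
            _ ≤ (2 * Nat.card B) * Nat.card X0 := Nat.mul_le_mul_right _ hcAd
            _ = Nat.card B * (2 * Nat.card X0) := by ring
        exact Nat.le_of_mul_le_mul_left h4 h3
      have hWX : W ≤ X := by
        rw [hX]
        exact le_inf hWU (le_centralizer_iff.mp hBW)
      have hX0X : X0 ≤ X := by
        rw [hX, hX0]
        exact inf_le_inf_left _ (centralizer_le hBAd)
      have hX0U : X0 ≤ U := hX0 ▸ inf_le_left
      obtain ⟨W0, hW0⟩ : ∃ W0, W0 = W ⊓ X0 := ⟨_, rfl⟩
      have hW0W : W0 ≤ W := hW0 ▸ inf_le_left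
      have hcW : Nat.card W ≤ 2 * Nat.card W0 := by
        have h1 := Helper12.card_sup_mul_card_inf' W X0 (abn hWU hX0U)
        rw [← hW0] at h1
        have h2 : Nat.card (W ⊔ X0 : Subgroup G) ≤ Nat.card X := card_le_of_le (sup_le hWX hX0X)
        have h3 : 0 < Nat.card X0 := Nat.card_pos
        have h4 : Nat.card X0 * Nat.card W ≤ Nat.card X0 * (2 * Nat.card W0) := by
          calc Nat.card X0 * Nat.card W = Nat.card W * Nat.card X0 := by ring
            _ = Nat.card (W ⊔ X0 : Subgroup G) * Nat.card W0 := h1.symm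
            _ ≤ (2 * Nat.card X0) * Nat.card W0 := Nat.mul_le_mul_right _ (h2.trans hXX0)
            _ = Nat.card X0 * (2 * Nat.card W0) := by ring
        exact Nat.le_of_mul_le_mul_left h4 h3
      have hW0fix : ∀ u ∈ W0, a' * u * a'⁻¹ = u := by
        intro u hu
        rw [hW0, hX0] at hu
        have := mem_centralizer_iff.mp (mem_inf.mp (mem_inf.mp hu).2).2 a' ha'
        rw [this, mul_inv_cancel_right]
      obtain ⟨W1, hW1⟩ : ∃ W1, W1 = W0.map (MulAut.conj y).toMonoidHom := ⟨_, rfl⟩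
      have hW1W : W1 ≤ W := by
        rw [hW1]
        rintro _ ⟨u, hu, rfl⟩
        exact cjm hyW (hW0W hu)
      have hcW1 : Nat.card W1 = Nat.card W0 := by
        rw [hW1]
        exact card_map_of_injective (MulAut.conj y).injective
      have hdisj : W0 ⊓ W1 = ⊥ := by
        rw [eq_bot_iff]
        intro u hu
        obtain ⟨hu0, hu1⟩ := mem_inf.mp hu
        rw [hW1] at hu1
        obtain ⟨v, hv, hvu⟩ := hu1
        change y * v * y⁻¹ = u at hvu
        have hv' : v ∈ W0 := hv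
        have h1 := hinv' v (hWU (hW0W hv'))
        rw [hvu, hW0fix u hu0, hW0fix v hv', ← hvu] at h1
        have h2 : y * v = v * y := by
          have e1 : y⁻¹ * v * y = v := by
            calc y⁻¹ * v * y = (y * y) * v * (y * y)⁻¹ := by rw [hyy, inv_inv]
              _ = y * (y * v * y⁻¹) * y⁻¹ := by group
              _ = y * (y⁻¹ * v * y) * y⁻¹ := by rw [h1]
              _ = v := by group
          calc y * v = y * (y⁻¹ * v * y) := by rw [e1]
            _ = v * y := by group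
        have h3 : v ∈ W ⊓ centralizer (zpowers y : Set G) :=
          mem_inf.mpr ⟨hW0W hv', hcentY v h2⟩
        rw [hWfix, mem_bot] at h3
        rw [mem_bot, ← hvu, h3]
        group
      have h5 := Helper12.card_sup_mul_card_inf' W0 W1 (abn (hW0W.trans hWU) (hW1W.trans hWU))
      rw [hdisj, card_bot, mul_one, hcW1] at h5
      have h6 : Nat.card (W0 ⊔ W1 : Subgroup G) ≤ Nat.card W := card_le_of_le (sup_le hW0W hW1W)
      have h7 : 0 < Nat.card W0 := Nat.card_pos
      have h8 : Nat.card W0 ≤ 2 := by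
        have : Nat.card W0 * Nat.card W0 ≤ Nat.card W0 * 2 := by
          calc Nat.card W0 * Nat.card W0 = Nat.card (W0 ⊔ W1 : Subgroup G) := h5.symm
            _ ≤ Nat.card W := h6
            _ ≤ 2 * Nat.card W0 := hcW
            _ = Nat.card W0 * 2 := by ring
        exact Nat.le_of_mul_le_mul_left this h7
      omega
  obtain ⟨k, hk⟩ := IsPGroup.iff_card.mp hWp
  obtain ⟨f, hfW, hf1⟩ : ∃ f ∈ W, f ≠ 1 := by
    by_contra hcon
    push Not at hcon
    exact hne ((eq_bot_iff_forall W).mpr hcon)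
  have hk2 : k ≤ 2 := by
    by_contra hcon
    have : 2 ^ 3 ≤ 2 ^ k := Nat.pow_le_pow_right (by norm_num) (by omega)
    omega
  have hk0 : k ≠ 0 := by
    rintro rfl
    rw [pow_zero] at hk
    exact hne (card_eq_one.mp hk)
  have hk1 : k ≠ 1 := by
    rintro rfl
    rw [pow_one] at hk
    obtain ⟨z, -, hz⟩ := (Nat.card_eq_two_iff' (1 : W)).mp hk
    have h1 := hz ⟨f, hfW⟩ (fun h => hf1 (congrArg Subtype.val h))
    have h2 := hz ⟨y * f * y⁻¹, cjm hyW hfW⟩ (fun h => hf1 (by
      have := congrArg Subtype.val h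
      simpa using this))
    have h3 : y * f * y⁻¹ = f := congrArg Subtype.val (h2.trans h1.symm)
    have h4 : f ∈ W ⊓ centralizer (zpowers y : Set G) :=
      mem_inf.mpr ⟨hfW, hcentY f (mul_inv_eq_iff_eq_mul.mp h3)⟩
    rw [hWfix, mem_bot] at h4
    exact hf1 h4
  have : k = 2 := by omega
  rw [hk, this]
  norm_num

end Cfsg.Agent.Lib.Helper69.JC
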