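import Mathlib

set_option autoImplicit false

/-! Rung U1 of the ladder for the quotient theorem on Frobenius complements:
`A₄`, `S₄`, `A₅`, `S₅` have no nontrivial normal Z-subgroup. -/

namespace Cfsg.Agent.Lib.Helper69.Z91

/-- A cyclic normal subgroup is trivial if no cyclic subgroup `⟨x⟩`, `x ≠ 1`, is normal. -/
theorem cyclic_normal_eq_bot {X : Type*} [Group X]
    (h : ∀ x : X, x ≠ 1 → ∃ g, g * x * g⁻¹ ∉ Subgroup.zpowers x)
    (C : Subgroup X) (hC : C.Normal) (hc : IsCyclic C) : C = ⊥ := by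
  obtain ⟨x, hx⟩ := hc.exists_generator
  by_contra hne
  have hx1 : (x : X) ≠ 1 := by
    intro h1
    apply hne
    rw [Subgroup.eq_bot_iff_forall]
    intro y hy
    have := hx ⟨y, hy⟩
    obtain ⟨k, hk⟩ := Subgroup.mem_zpowers_iff.mp this
    have h2 : ((x ^ k : C) : X) = y := by rw [hk]
    rw [Subgroup.coe_zpow, h1, one_zpow] at h2
    exact h2.symm
  obtain ⟨g, hg⟩ := h x hx1
  apply hg
  have hmem : g * x * g⁻¹ ∈ C := hC.conj_mem _ x.2 g
  obtain ⟨k, hk⟩ := Subgroup.mem_zpowers_iff.mp (hx ⟨_, hmem⟩)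
  refine Subgroup.mem_zpowers_iff.mpr ⟨k, ?_⟩
  have h2 : ((x ^ k : C) : X) = g * x * g⁻¹ := by rw [hk]
  rw [Subgroup.coe_zpow] at h2
  exact h2

/-- No nontrivial normal Z-subgroup if no cyclic subgroup `⟨x⟩`, `x ≠ 1`, is normal. -/
theorem noZ_generic {X : Type*} [Group X] [Finite X]
    (h : ∀ x : X, x ≠ 1 → ∃ g, g * x * g⁻¹ ∉ Subgroup.zpowers x)
    (K : Subgroup X) (hK : K.Normal) (hZ : IsZGroup K) : K = ⊥ := by
  have h1 : ⁅K, K⁆ = ⊥ := by
    apply cyclic_normal_eq_bot h _ inferInstance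
    rw [← Subgroup.map_subtype_commutator]
    have : IsCyclic (commutator K) := IsZGroup.isCyclic_commutator K
    exact isCyclic_of_surjective ((K.subtype).subgroupMap (commutator K))
      ((K.subtype).subgroupMap_surjective _)
  have h4 : ∀ a b : K, a * b = b * a := by
    intro a b
    have h5 := Subgroup.commutator_eq_bot_iff_le_centralizer.mp h1
    exact Subtype.ext ((Subgroup.mem_centralizer_iff.mp (h5 b.2) a a.2))
  let _ : CommGroup K := { (inferInstance : Group K) with mul_comm := h4 }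
  have : IsCyclic K := inferInstance
  exact cyclic_normal_eq_bot h K hK this

/-- The decidable form of the hypothesis. -/
theorem noZ_of_six {X : Type*} [Group X] [Finite X]
    (h6 : ∀ x : X, x ^ 1 = 1 ∨ x ^ 2 = 1 ∨ x ^ 3 = 1 ∨ x ^ 4 = 1 ∨ x ^ 5 = 1 ∨ x ^ 6 = 1)
    (h : ∀ x : X, x ≠ 1 → ∃ g, ∀ k < 6, g * x * g⁻¹ ≠ x ^ k)
    (K : Subgroup X) (hK : K.Normal) (hZ : IsZGroup K) : K = ⊥ := by
  apply noZ_generic _ K hK hZ
  intro x hx
  obtain ⟨g, hg⟩ := h x hx
  refine ⟨g, fun hmem => ?_⟩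
  have ho : orderOf x ≤ 6 := by
    rcases h6 x with h | h | h | h | h | h
    · exact (orderOf_le_of_pow_eq_one (by norm_num) h).trans (by norm_num)
    · exact (orderOf_le_of_pow_eq_one (by norm_num) h).trans (by norm_num)
    · exact (orderOf_le_of_pow_eq_one (by norm_num) h).trans (by norm_num)
    · exact (orderOf_le_of_pow_eq_one (by norm_num) h).trans (by norm_num)
    · exact (orderOf_le_of_pow_eq_one (by norm_num) h).trans (by norm_num)
    · exact (orderOf_le_of_pow_eq_one (by norm_num) h).trans (by norm_num)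
  obtain ⟨k, hk⟩ := Subgroup.mem_zpowers_iff.mp hmem
  have hpos : 0 < orderOf x := orderOf_pos x
  have h1 : x ^ (k % (orderOf x : ℤ)) = g * x * g⁻¹ := by rw [zpow_mod_orderOf, hk]
  have h2 : 0 ≤ k % (orderOf x : ℤ) := Int.emod_nonneg _ (by positivity)
  have h3 : k % (orderOf x : ℤ) < orderOf x := Int.emod_lt_of_pos _ (by positivity)
  obtain ⟨m, hm⟩ := Int.eq_ofNat_of_zero_le h2
  rw [hm, zpow_natCast] at h1
  exact hg m (by omega) h1.symm

theorem noZ_S4 (K : Subgroup (Equiv.Perm (Fin 4))) (hK : K.Normal) (hZ : IsZGroup K) : K = ⊥ := by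
  apply noZ_of_six _ _ K hK hZ
  · decide +kernel
  · decide +kernel

theorem noZ_A4 (K : Subgroup (alternatingGroup (Fin 4))) (hK : K.Normal) (hZ : IsZGroup K) :
    K = ⊥ := by
  apply noZ_of_six _ _ K hK hZ
  · decide +kernel
  · decide +kernel

theorem noZ_S5 (K : Subgroup (Equiv.Perm (Fin 5))) (hK : K.Normal) (hZ : IsZGroup K) : K = ⊥ := by
  apply noZ_of_six _ _ K hK hZ
  · decide +kernel
  · decide +kernel

theorem noZ_A5 (K : Subgroup (alternatingGroup (Fin 5))) (hK : K.Normal) (hZ : IsZGroup K) :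
    K = ⊥ := by
  apply noZ_of_six _ _ K hK hZ
  · decide +kernel
  · decide +kernel

end Cfsg.Agent.Lib.Helper69.Z91
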