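import Mathlib
import Cfsg.Agent.Lib.Helper38.Z91Defs
import Cfsg.Agent.Lib.Helper69.Z91U1

set_option autoImplicit false

/-! Rung U2 of the ladder for the quotient theorem on Frobenius complements: uniqueness of the
normal Z-subgroup with quotient in the list. -/

namespace Cfsg.Agent.Lib.Helper69.Z91

open Cfsg.Agent.Lib.Helper38.Z91

/-- A normal subgroup containing all squares has index at most `4`, if the Sylow `2`-subgroups
are generated by two elements. -/
theorem index_le_four_of_sq {G : Type*} [Group G] [Finite G]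
    (h2 : ∀ P : Sylow 2 G, ∃ x y : P, Subgroup.closure ({x, y} : Set P) = ⊤)
    (D : Subgroup G) [D.Normal] (hsq : ∀ g, g * g ∈ D) : D.index ≤ 4 := by
  classical
  have : Fact (Nat.Prime 2) := ⟨Nat.prime_two⟩
  obtain ⟨P⟩ : Nonempty (Sylow 2 G) := inferInstance
  obtain ⟨x, y, hxy⟩ := h2 P
  have hq : ∀ q : G ⧸ D, q * q = 1 := by
    intro q
    obtain ⟨g, rfl⟩ := QuotientGroup.mk'_surjective D q
    rw [← map_mul]
    exact (QuotientGroup.eq_one_iff _).mpr (hsq g)
  have hinv : ∀ q : G ⧸ D, q⁻¹ = q := fun q => inv_eq_of_mul_eq_one_left (hq q)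
  have hcomm : ∀ a b : G ⧸ D, a * b = b * a := by
    intro a b
    have h1 := hinv (a * b)
    rw [mul_inv_rev, hinv, hinv] at h1
    exact h1.symm
  have hPD : (P : Subgroup G) ⊔ D = ⊤ := by
    rw [← Subgroup.index_eq_one]
    have hp : IsPGroup 2 (G ⧸ D) := fun q => ⟨1, by rw [pow_one, pow_two, hq]⟩
    obtain ⟨k, hk⟩ := IsPGroup.iff_card.mp hp
    have h1 : ((P : Subgroup G) ⊔ D).index ∣ 2 ^ k := by
      rw [← hk]
      exact Subgroup.index_dvd_of_le le_sup_right
    have h3 : ((P : Subgroup G) ⊔ D).index ∣ (P : Subgroup G).index :=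
      Subgroup.index_dvd_of_le le_sup_left
    obtain ⟨j, -, hj⟩ := (Nat.dvd_prime_pow Nat.prime_two).mp h1
    rcases j with _ | j
    · simpa using hj
    · exfalso
      apply P.not_dvd_index
      refine dvd_trans ?_ h3
      rw [hj]
      exact ⟨2 ^ j, by ring⟩
  have hmap : Subgroup.closure ({QuotientGroup.mk' D (x : G), QuotientGroup.mk' D (y : G)} :
      Set (G ⧸ D)) = ⊤ := by
    have h1 : (P : Subgroup G) = Subgroup.closure ({(x : G), (y : G)} : Set G) := by
      have := congrArg (Subgroup.map (P : Subgroup G).subtype) hxy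
      rw [MonoidHom.map_closure, ← MonoidHom.range_eq_map, Subgroup.range_subtype] at this
      rw [← this]
      congr 1
      simp [Set.image_pair]
    have h3 : Subgroup.map (QuotientGroup.mk' D) ((P : Subgroup G) ⊔ D) = ⊤ := by
      rw [hPD, ← MonoidHom.range_eq_map, MonoidHom.range_eq_top]
      exact QuotientGroup.mk'_surjective D
    rw [Subgroup.map_sup, QuotientGroup.map_mk'_self, sup_bot_eq, h1, MonoidHom.map_closure,
      Set.image_pair] at h3
    exact h3
  let _ : CommGroup (G ⧸ D) := { (inferInstance : Group (G ⧸ D)) with mul_comm := hcomm }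
  set a := QuotientGroup.mk' D (x : G) with ha
  set b := QuotientGroup.mk' D (y : G) with hb
  have hz : ∀ (c : G ⧸ D) (m : ℤ), c ^ m = 1 ∨ c ^ m = c := by
    intro c m
    rcases Int.even_or_odd' m with ⟨k, rfl | rfl⟩
    · left
      rw [zpow_mul, zpow_two, hq, one_zpow]
    · right
      rw [zpow_add, zpow_mul, zpow_two, hq, one_zpow, one_mul, zpow_one]
  have hall : ∀ q : G ⧸ D, q ∈ ({1, a, b, a * b} : Finset (G ⧸ D)) := by
    intro q
    have hqm : q ∈ Subgroup.closure ({a, b} : Set (G ⧸ D)) := by rw [hmap]; trivial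
    obtain ⟨m, n, rfl⟩ := Subgroup.mem_closure_pair.mp hqm
    rcases hz a m with h | h <;> rcases hz b n with h' | h' <;> rw [h, h'] <;> simp
  have : Fintype (G ⧸ D) := Fintype.ofFinite _
  rw [Subgroup.index, Nat.card_eq_fintype_card]
  calc Fintype.card (G ⧸ D) = (Finset.univ : Finset (G ⧸ D)).card := rfl
    _ ≤ ({1, a, b, a * b} : Finset (G ⧸ D)).card :=
        Finset.card_le_card (fun q _ => hall q)
    _ ≤ 4 := Finset.card_le_four

/-- The generic case of the key dichotomy. -/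
theorem le_ker_of_noZ {G X : Type*} [Group G] [Finite G] [Group X]
    (hX : ∀ K : Subgroup X, K.Normal → IsZGroup K → K = ⊥)
    (f : G →* X) (hf : Function.Surjective f) (K : Subgroup G) (hK : K.Normal)
    (hZ : IsZGroup K) : K ≤ f.ker := by
  rw [← Subgroup.map_eq_bot_iff]
  exact hX _ (hK.map f hf) (IsZGroup.of_surjective (f := f.subgroupMap K)
    (f.subgroupMap_surjective K))

theorem not_isZGroup_dihedral_two : ¬ IsZGroup (DihedralGroup 2) := by
  intro h
  have hcomm : ∀ a b : DihedralGroup 2, a * b = b * a := by decide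
  let _ : CommGroup (DihedralGroup 2) :=
    { (inferInstance : Group (DihedralGroup 2)) with mul_comm := hcomm }
  have hc : IsCyclic (DihedralGroup 2) := inferInstance
  have h1 := hc.exponent_eq_card
  rw [DihedralGroup.exponent, DihedralGroup.nat_card] at h1
  revert h1
  decide

theorem key_of_inList {G : Type*} [Group G] [Finite G] (N : Subgroup G) (hl : InList N)
    (K : Subgroup G) (hK : K.Normal) (hZ : IsZGroup K) :
    K ≤ N ∨ (N.index = 4 ∧ (∀ g, g * g ∈ N) ∧ K ≠ ⊤) := by
  rcases hl with rfl | ⟨f, hf, rfl⟩ | ⟨f, hf, rfl⟩ | ⟨f, hf, rfl⟩ | ⟨f, hf, rfl⟩ | ⟨f, hf, rfl⟩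
  · exact Or.inl le_top
  · right
    refine ⟨?_, ?_, ?_⟩
    · rw [Subgroup.index_ker, MonoidHom.range_eq_top.mpr hf, Subgroup.card_top,
        DihedralGroup.nat_card]
    · intro g
      rw [MonoidHom.mem_ker, map_mul]
      have : ∀ a : DihedralGroup 2, a * a = 1 := by decide
      exact this _
    · rintro rfl
      apply not_isZGroup_dihedral_two
      have : IsZGroup G := IsZGroup.of_surjective (f := (⊤ : Subgroup G).subtype)
        (fun g => ⟨⟨g, trivial⟩, rfl⟩)
      exact IsZGroup.of_surjective hf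
  · exact Or.inl (le_ker_of_noZ noZ_A4 f hf K hK hZ)
  · exact Or.inl (le_ker_of_noZ noZ_S4 f hf K hK hZ)
  · exact Or.inl (le_ker_of_noZ noZ_A5 f hf K hK hZ)
  · exact Or.inl (le_ker_of_noZ noZ_S5 f hf K hK hZ)

theorem index_of_inList {G : Type*} [Group G] (N : Subgroup G) (hl : InList N) :
    N.index = 1 ∨ N.index = 4 ∨ N.index = 12 ∨ N.index = 24 ∨ N.index = 60 ∨ N.index = 120 := by
  rcases hl with rfl | ⟨f, hf, rfl⟩ | ⟨f, hf, rfl⟩ | ⟨f, hf, rfl⟩ | ⟨f, hf, rfl⟩ | ⟨f, hf, rfl⟩
  · left; simp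
  · right; left
    rw [Subgroup.index_ker, MonoidHom.range_eq_top.mpr hf, Subgroup.card_top,
      DihedralGroup.nat_card]
  · right; right; left
    rw [Subgroup.index_ker, MonoidHom.range_eq_top.mpr hf, Subgroup.card_top,
      Nat.card_eq_fintype_card]
    decide +kernel
  · right; right; right; left
    rw [Subgroup.index_ker, MonoidHom.range_eq_top.mpr hf, Subgroup.card_top,
      Nat.card_eq_fintype_card]
    decide +kernel
  · right; right; right; right; left
    rw [Subgroup.index_ker, MonoidHom.range_eq_top.mpr hf, Subgroup.card_top,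
      Nat.card_eq_fintype_card]
    decide +kernel
  · right; right; right; right; right
    rw [Subgroup.index_ker, MonoidHom.range_eq_top.mpr hf, Subgroup.card_top,
      Nat.card_eq_fintype_card]
    decide +kernel

theorem eq_of_le_of_exceptional {G : Type*} [Group G] [Finite G] (N₁ N₂ : Subgroup G)
    (hl₁ : InList N₁) (h21 : N₂ ≤ N₁) (i2 : N₂.index = 4) (t1 : N₁ ≠ ⊤) : N₁ = N₂ := by
  have h1 := Subgroup.relIndex_mul_index h21
  have h3 : N₁.index ≠ 1 := fun h => t1 (Subgroup.index_eq_one.mp h)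
  rw [i2] at h1
  have h4 : N₁.index ∣ 4 := ⟨_, by rw [mul_comm]; exact h1.symm⟩
  have h5 : N₁.index = 4 := by
    rcases index_of_inList N₁ hl₁ with h | h | h | h | h | h
    · exact absurd h h3
    · exact h
    all_goals (rw [h] at h4; exact absurd h4 (by decide))
  rw [h5] at h1
  have h6 : N₂.relIndex N₁ = 1 := by omega
  exact le_antisymm (Subgroup.relIndex_eq_one.mp h6) h21

theorem unique_of_inList {G : Type*} [Group G] [Finite G]
    (h2 : ∀ P : Sylow 2 G, ∃ x y : P, Subgroup.closure ({x, y} : Set P) = ⊤)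
    (N₁ N₂ : Subgroup G) (hn₁ : N₁.Normal) (hn₂ : N₂.Normal) (hz₁ : IsZGroup N₁)
    (hz₂ : IsZGroup N₂) (hl₁ : InList N₁) (hl₂ : InList N₂) : N₁ = N₂ := by
  rcases key_of_inList N₁ hl₁ N₂ hn₂ hz₂ with h21 | ⟨i1, s1, t2⟩ <;>
  rcases key_of_inList N₂ hl₂ N₁ hn₁ hz₁ with h12 | ⟨i2, s2, t1⟩
  · exact le_antisymm h12 h21
  · exact eq_of_le_of_exceptional N₁ N₂ hl₁ h21 i2 t1
  · exact (eq_of_le_of_exceptional N₂ N₁ hl₂ h12 i1 t2).symm
  · have hD : (N₁ ⊓ N₂).index ≤ 4 :=
      index_le_four_of_sq h2 (N₁ ⊓ N₂) (fun g => ⟨s1 g, s2 g⟩)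
    have hne : ∀ H K : Subgroup G, H.relIndex K ≠ 0 := fun H K => by
      rw [Subgroup.relIndex]
      exact Subgroup.index_ne_zero_of_finite
    have h1 := Subgroup.relIndex_mul_index (inf_le_left : N₁ ⊓ N₂ ≤ N₁)
    have h3 := Subgroup.relIndex_mul_index (inf_le_right : N₁ ⊓ N₂ ≤ N₂)
    have h4 := hne (N₁ ⊓ N₂) N₁
    have h5 := hne (N₁ ⊓ N₂) N₂
    rw [i1] at h1
    rw [i2] at h3
    have h6 : (N₁ ⊓ N₂).relIndex N₁ = 1 := by omega
    have h7 : (N₁ ⊓ N₂).relIndex N₂ = 1 := by omega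
    exact le_antisymm ((Subgroup.relIndex_eq_one.mp h6).trans inf_le_right)
      ((Subgroup.relIndex_eq_one.mp h7).trans inf_le_left)

end Cfsg.Agent.Lib.Helper69.Z91
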