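import Mathlib
import Cfsg.Agent.Lib.Helper38.Z91Defs
import Cfsg.Agent.Lib.Helper77.Frobenius

set_option autoImplicit false

/-! Rung V of the ladder for the quotient theorem on Frobenius complements: the case of a normal
`2`-complement and noncyclic Sylow `2`-subgroups. -/

namespace Cfsg.Agent.Lib.Helper69.Z91

open Cfsg.Agent.Lib.Helper38.Z91 Cfsg.Agent.Lib.Helper61.Zass Cfsg.Agent.Lib.Helper38.Zass

/-- The reduction `ZMod (2 * m) → ZMod 2`. -/
noncomputable def redTwo (m : ℕ) : ZMod (2 * m) →+* ZMod 2 :=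
  ZMod.castHom (Dvd.intro m rfl : 2 ∣ 2 * m) (ZMod 2)

/-- The map from the generalized quaternion group onto the four-group. -/
noncomputable def psiFun (m : ℕ) : QuaternionGroup m → DihedralGroup 2
  | .a i => .r (redTwo m i)
  | .xa i => .sr (redTwo m i)

/-- The homomorphism from the generalized quaternion group onto the four-group. -/
noncomputable def psi (m : ℕ) (hm : 2 ∣ m) : QuaternionGroup m →* DihedralGroup 2 :=
  MonoidHom.mk' (psiFun m) (by
    have h0 : redTwo m (m : ZMod (2 * m)) = 0 := by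
      rw [map_natCast]
      exact (ZMod.natCast_eq_zero_iff m 2).mpr hm
    rintro (i | i) (j | j) <;> simp [psiFun, h0])

theorem psi_surjective (m : ℕ) (hm : 2 ∣ m) : Function.Surjective (psi m hm) := by
  rintro (i | i)
  · obtain ⟨j, rfl⟩ := ZMod.castHom_surjective (Dvd.intro m rfl : 2 ∣ 2 * m) i
    exact ⟨.a j, rfl⟩
  · obtain ⟨j, rfl⟩ := ZMod.castHom_surjective (Dvd.intro m rfl : 2 ∣ 2 * m) i
    exact ⟨.xa j, rfl⟩

theorem mem_zpowers_of_psi (m : ℕ) [NeZero m] (hm : 2 ∣ m) (q : QuaternionGroup m)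
    (hq : psi m hm q = 1) : q ∈ Subgroup.zpowers (QuaternionGroup.a 1 : QuaternionGroup m) := by
  rcases q with i | i
  · refine ⟨(i.val : ℤ), ?_⟩
    simp only [zpow_natCast, QuaternionGroup.a_one_pow]
    rw [ZMod.natCast_zmod_val]
  · exfalso
    have : psi m hm (.xa i) = .sr (redTwo m i) := rfl
    rw [this, DihedralGroup.one_def] at hq
    cases hq

theorem exists_V4 {G : Type*} [Group G] [Finite G] (hFR : HasFreeRep G) (P : Sylow 2 G)
    (hP : ¬ IsCyclic P) (hK : Cfsg.Agent.Lib.Helper77.NPC 2 G) :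
    ∃ N : Subgroup G, N.Normal ∧ IsZGroup N ∧
      ∃ f : G →* DihedralGroup 2, Function.Surjective f ∧ f.ker = N := by
  have : Fact (Nat.Prime 2) := ⟨Nat.prime_two⟩
  obtain ⟨K, hKn, hKc, k, hk⟩ := hK
  have hcompl := (Cfsg.Agent.Lib.Helper77.isComplement'_of_npc hKc hk P).symm
  rcases D3 hFR 2 P with hc | ⟨n, ⟨e⟩⟩
  · exact absurd hc hP
  rcases n with _ | n
  · exfalso
    apply hP
    have hc : IsCyclic (QuaternionGroup (2 ^ 0)) := by
      rw [pow_zero]; exact QuaternionGroup.quaternionGroup_one_isCyclic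
    exact isCyclic_of_injective e.toMonoidHom e.injective
  have hm : 2 ∣ 2 ^ (n + 1) := ⟨2 ^ n, by ring⟩
  let e1 : G ⧸ K ≃* P := hcompl.QuotientMulEquiv
  let φ : G →* QuaternionGroup (2 ^ (n + 1)) :=
    e.toMonoidHom.comp (e1.toMonoidHom.comp (QuotientGroup.mk' K))
  have hφs : Function.Surjective φ :=
    e.surjective.comp (e1.surjective.comp (QuotientGroup.mk'_surjective K))
  have hφk : ∀ g : G, φ g = 1 → g ∈ K := by
    intro g hg
    have h1 : e (e1 (QuotientGroup.mk' K g)) = 1 := hg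
    rw [MulEquiv.map_eq_one_iff, MulEquiv.map_eq_one_iff] at h1
    exact (QuotientGroup.eq_one_iff g).mp h1
  refine ⟨((psi _ hm).comp φ).ker, inferInstance, ?_, (psi _ hm).comp φ,
    (psi_surjective _ hm).comp hφs, rfl⟩
  set N := ((psi _ hm).comp φ).ker with hN
  constructor
  intro p hp R
  have : Fact p.Prime := ⟨hp⟩
  by_cases hp2 : p = 2
  · subst hp2
    have hmem : ∀ r : R, φ ((r : N) : G) ∈
        Subgroup.zpowers (QuaternionGroup.a 1 : QuaternionGroup (2 ^ (n + 1))) := by
      intro r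
      apply mem_zpowers_of_psi _ hm
      exact (r : N).2
    let g : R →* Subgroup.zpowers (QuaternionGroup.a 1 : QuaternionGroup (2 ^ (n + 1))) :=
      (φ.comp (N.subtype.comp (R : Subgroup N).subtype)).codRestrict _ hmem
    apply isCyclic_of_injective g
    rw [injective_iff_map_eq_one]
    intro r hr
    have h1 : φ ((r : N) : G) = 1 := congrArg Subtype.val hr
    have h2 : ((r : N) : G) ∈ K := hφk _ h1
    obtain ⟨j, hj⟩ := (IsPGroup.iff_orderOf.mp R.isPGroup') r
    have h3 : orderOf ((r : N) : G) = 2 ^ j := by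
      rw [Subgroup.orderOf_coe, Subgroup.orderOf_coe, hj]
    have h4 : orderOf ((r : N) : G) ∣ Nat.card K := by
      have := orderOf_dvd_natCard (⟨_, h2⟩ : K)
      rwa [← Subgroup.orderOf_coe] at this
    have h5 : orderOf ((r : N) : G) = 1 := by
      apply Nat.eq_one_of_dvd_coprimes (Nat.Coprime.pow_right j hKc) h4
      rw [h3]
    rw [orderOf_eq_one_iff] at h5
    exact Subtype.ext (Subtype.ext h5)
  · exact isCyclic_sylow_of_odd (hFR.subgroup N) p hp2 R

end Cfsg.Agent.Lib.Helper69.Z91
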